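import Cfsg.Agent.Chev.OddInvol.Monomial

/-!
# The order of the centraliser of a torus element

`|C(t)| = |H| q^N Σ_w q^{l(w)}`, with `N` the number of positive roots trivial on `t`, the sum over
the Weyl elements fixing `t`, and `l(w)` the number of those roots made negative by `w`.
-/

set_option autoImplicit false

namespace CfsgLib.Chev.OddInvol

open Cfsg.Lie CfsgLib.Chev CfsgLib.Chev.Sys

universe u

variable {D : ChevalleyDatum} (S : Sys.{u} D) {F : Type u} [Field F]

/-- The elements of the Weyl group fixing a character. -/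
noncomputable def wFix (z : ℕ → Fˣ) : Finset (Equiv.Perm (Fin D.nroots)) := by
  classical exact S.weylSet.filter fun w => ∀ r : Fin D.nroots, S.chi z (w r : Fin D.nroots) = S.chi z r

/-- The number of roots trivial on the character which `w` makes negative. -/
noncomputable def subLen (z : ℕ → Fˣ) (w : Equiv.Perm (Fin D.nroots)) : ℕ := by
  classical exact ((Finset.range D.nroots).filter fun r =>
    D.nroots / 2 ≤ r ∧ Sys.FlipsNeg w r ∧ S.chi z r = 1).card

/-- The number of positive roots trivial on the character. -/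
noncomputable def subPos (z : ℕ → Fˣ) : ℕ := by
  classical exact ((Finset.range D.nroots).filter fun r => D.nroots / 2 ≤ r ∧ S.chi z r = 1).card

include S

theorem dg_conj_wU (z : ℕ → Fˣ) : ∀ (L : List (ℕ × F)), (∀ p ∈ L, p.1 < D.nroots) →
    S.dg z * S.wU L * (S.dg z)⁻¹ = S.wU (L.map fun p => (p.1, (S.chi z p.1 : F) * p.2)) := by
  intro L
  induction L with
  | nil => intro _; simp [Sys.wU]
  | cons p L ih =>
    intro h
    obtain ⟨r, t⟩ := p
    rw [List.map_cons, S.wU_cons, S.wU_cons, ← ih fun x hx => h x (List.mem_cons_of_mem _ hx),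
      ← S.dg_conj_xU z (h (r, t) (List.mem_cons_self ..))]
    group

theorem dg_conj_prodFrom (z : ℕ → Fˣ) (t : ℕ → F) (k : ℕ) :
    S.dg z * S.prodFrom t k * (S.dg z)⁻¹ = S.prodFrom (fun r => (S.chi z r : F) * t r) k := by
  rw [Sys.prodFrom, dg_conj_wU S z _ (fun p hp => by
    simp only [List.mem_map, List.mem_range'_1] at hp
    obtain ⟨r, hr, rfl⟩ := hp
    show r < D.nroots
    omega), List.map_map]
  rfl

theorem commute_conj {x y : GL D.Idx F} : x * y = y * x ↔ x * y * x⁻¹ = y :=
  ⟨fun e => by rw [e, mul_inv_cancel_right], fun e => by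
    calc x * y = x * y * x⁻¹ * x := by group
      _ = y * x := by rw [e]⟩

/-- The fixed points in a product of root subgroups. -/
theorem card_fixed_genBy [Finite F] (z : ℕ → Fˣ) (P : ℕ → Prop) [DecidablePred P]
    (hP : Nat.card (S.genBy F P) =
      Nat.card F ^ ((Finset.range D.nroots).filter fun r => D.nroots / 2 ≤ r ∧ P r).card)
    [DecidablePred fun r => S.chi z r = 1] :
    Nat.card {g : GL D.Idx F // g ∈ S.genBy F P ∧ S.dg z * g = g * S.dg z} =
      Nat.card F ^ ((Finset.range D.nroots).filter fun r =>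
        D.nroots / 2 ≤ r ∧ P r ∧ S.chi z r = 1).card := by
  classical
  haveI := finite_GL (D := D) (F := F)
  set A := (Finset.range D.nroots).filter fun r => D.nroots / 2 ≤ r ∧ P r
  have hmem : ∀ t : ℕ → F, (∀ r, t r ≠ 0 → r < D.nroots → D.nroots / 2 ≤ r → P r) →
      S.prodFrom t (D.nroots / 2) ∈ S.genBy F P := fun t ht => by
    rw [Sys.prodFrom, Sys.wU]
    refine Subgroup.list_prod_mem _ fun x hx => ?_
    simp only [List.map_map, List.mem_map, List.mem_range'_1, Function.comp_apply] at hx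
    obtain ⟨r, hr, rfl⟩ := hx
    by_cases h0 : t r = 0
    · rw [h0, S.xU_zero]; exact one_mem _
    · exact S.xU_mem_genBy hr.1 (by omega) (ht r h0 (by omega) hr.1) _
  let ext : (A → F) → ℕ → F := fun t r => if h : r ∈ A then t ⟨r, h⟩ else 0
  let e : (A → F) → S.genBy F P := fun t => ⟨S.prodFrom (ext t) (D.nroots / 2), hmem _ fun r h0 _ _ => by
    by_contra hnP
    exact h0 (dif_neg fun h => hnP (Finset.mem_filter.1 h).2.2)⟩
  have heinj : Function.Injective e := fun t t' h => funext fun i => by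
    have hi := Finset.mem_filter.1 i.2
    have := S.prodFrom_inj le_rfl (congrArg Subtype.val h) i hi.2.1 (Finset.mem_range.1 hi.1)
    simpa [ext, i.2] using this
  have hesurj : Function.Surjective e := by
    haveI : Fintype F := Fintype.ofFinite F
    haveI : Fintype (S.genBy F P) := Fintype.ofFinite _
    refine ((Fintype.bijective_iff_injective_and_card e).2 ⟨heinj, ?_⟩).2
    rw [← Nat.card_eq_fintype_card, ← Nat.card_eq_fintype_card, Nat.card_fun,
      Nat.card_eq_fintype_card (α := A), Fintype.card_coe, hP]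
  set B := (Finset.range D.nroots).filter fun r => D.nroots / 2 ≤ r ∧ P r ∧ S.chi z r = 1
  let ext' : (B → F) → ℕ → F := fun t r => if h : r ∈ B then t ⟨r, h⟩ else 0
  have hfix : ∀ t : B → F, S.dg z * S.prodFrom (ext' t) (D.nroots / 2) =
      S.prodFrom (ext' t) (D.nroots / 2) * S.dg z := fun t => by
    rw [commute_conj S, dg_conj_prodFrom]
    refine S.prodFrom_congr fun r _ _ => ?_
    by_cases h : r ∈ B
    · rw [(Finset.mem_filter.1 h).2.2.2, Units.val_one, one_mul]
    · simp [ext', h]
  let f : (B → F) → {g : GL D.Idx F // g ∈ S.genBy F P ∧ S.dg z * g = g * S.dg z} := fun t =>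
    ⟨S.prodFrom (ext' t) (D.nroots / 2), hmem _ (fun r h0 _ _ => by
      by_contra hnP
      exact h0 (dif_neg fun h => hnP (Finset.mem_filter.1 h).2.2.1)), hfix t⟩
  have hf : Function.Bijective f := by
    refine ⟨fun t t' h => funext fun i => ?_, fun g => ?_⟩
    · have hi := Finset.mem_filter.1 i.2
      have := S.prodFrom_inj le_rfl (congrArg Subtype.val h) i hi.2.1 (Finset.mem_range.1 hi.1)
      simpa [ext', i.2] using this
    · obtain ⟨t, ht⟩ := hesurj ⟨g.1, g.2.1⟩
      have hg : g.1 = S.prodFrom (ext t) (D.nroots / 2) := (congrArg Subtype.val ht).symm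
      have hc := (commute_conj S).1 g.2.2
      rw [hg, dg_conj_prodFrom] at hc
      refine ⟨fun i => ext t i, Subtype.ext ?_⟩
      show S.prodFrom (ext' fun i => ext t i) (D.nroots / 2) = g.1
      rw [hg]
      refine S.prodFrom_congr fun r h1 h2 => ?_
      by_cases h : r ∈ B
      · simp [ext', h]
      · have h0 : ext t r = 0 := by
          by_contra h0
          have hrA : r ∈ A := by
            by_contra hrA
            exact h0 (dif_neg hrA)
          have e1 := S.prodFrom_inj le_rfl hc r h1 h2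
          have e2 : (S.chi z r : F) = 1 := mul_right_cancel₀ h0 (by rw [one_mul]; exact e1)
          exact h (Finset.mem_filter.2 ⟨Finset.mem_range.2 h2, h1, (Finset.mem_filter.1 hrA).2.2,
            Units.ext (by rw [e2, Units.val_one])⟩)
        rw [h0]
        simp [ext', h]
  rw [← Nat.card_eq_of_bijective f hf, Nat.card_fun, Nat.card_eq_fintype_card (α := B),
    Fintype.card_coe]

theorem diag_comm {a b : GL D.Idx F} (ha : a ∈ D.diagonalSubgroup F) (hb : b ∈ D.diagonalSubgroup F) :
    a * b = b * a := by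
  obtain ⟨x, rfl⟩ := S.exists_dg ha
  obtain ⟨y, rfl⟩ := S.exists_dg hb
  rw [← S.dg_mul, ← S.dg_mul, mul_comm]

/-- A monomial element commutes with `t` exactly when its permutation fixes the character. -/
theorem mono_commute_iff {n : GL D.Idx F} (hn : n ∈ D.monomialSubgroup F)
    {w : Equiv.Perm (Fin D.nroots)} (hw : S.Acts n w) {z : ℕ → Fˣ}
    (hz : S.dg z ∈ D.diagonalSubgroup F) :
    S.dg z * n = n * S.dg z ↔ ∀ r : Fin D.nroots, S.chi z (w r : Fin D.nroots) = S.chi z r := by
  obtain ⟨z', hz'⟩ := S.exists_dg (S.mono_conj_diag hn hz)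
  have key : ∀ r : Fin D.nroots, S.chi z' (w r : Fin D.nroots) = S.chi z r := fun r => by
    obtain ⟨c, hc⟩ := hw r
    have e : n * (S.dg z * S.xU r 1 * (S.dg z)⁻¹) * n⁻¹ =
        S.dg z' * (n * S.xU r 1 * n⁻¹) * (S.dg z')⁻¹ := by
      rw [← hz']; group
    rw [S.dg_conj_xU z r.2, hc, hc, S.dg_conj_xU z' (Fin.is_lt _), mul_one, mul_one] at e
    refine Units.ext (mul_right_cancel₀ (Units.ne_zero c) ?_)
    rw [← S.coef_eq (Fin.is_lt _) e, mul_comm]
  constructor
  · intro h r
    have e : S.dg z' = S.dg z := by rw [← hz', ← h, mul_inv_cancel_right]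
    rw [← key r]
    exact (S.chi_congr (fun i hi => S.dg_inj e hi) _).symm
  · intro h
    have e : S.dg z' = S.dg z := S.dg_congr fun i hi => by
      have h1 := key (w⁻¹ ⟨D.simple i, S.simple_lt hi⟩)
      have h2 := h (w⁻¹ ⟨D.simple i, S.simple_lt hi⟩)
      rw [← Equiv.Perm.mul_apply, mul_inv_cancel, Equiv.Perm.one_apply] at h1 h2
      rw [← h2] at h1
      simpa only [S.chi_simple _ hi] using h1
    rw [e] at hz'
    exact ((commute_conj S).2 hz').symm

/-- The order of the centraliser. -/
theorem card_centralizer [Finite F] {z : ℕ → Fˣ} (hz : S.dg z ∈ D.diagonalSubgroup F) :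
    Nat.card (Subgroup.centralizer ({⟨S.dg z, S.diag_le_group hz⟩} : Set (D.group F))) =
      Nat.card (D.diagonalSubgroup F) * Nat.card F ^ subPos S z *
        ∑ w ∈ wFix S z, Nat.card F ^ subLen S z w := by
  classical
  haveI := finite_GL (D := D) (F := F)
  set s := S.dg z with hs
  have hrep : ∀ w : wFix S z, ∃ n ∈ D.monomialSubgroup F, S.Acts n w.1 ∧ s * n = n * s := by
    intro w
    have hw := Finset.mem_filter.1 (show w.1 ∈ S.weylSet.filter fun w =>
      ∀ r : Fin D.nroots, S.chi z (w r : Fin D.nroots) = S.chi z r from by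
      have := w.2
      unfold wFix at this
      convert this)
    obtain ⟨L, hL, e⟩ := S.exists_wprod (S.mem_weylSet.1 hw.1)
    have ha : S.Acts (S.nw F L) w.1 := e ▸ S.acts_nw hL
    exact ⟨S.nw F L, S.nw_mem_mono hL, ha, (mono_commute_iff S (S.nw_mem_mono hL) ha hz).2 hw.2⟩
  choose rep hrep1 hrep2 hrep3 using hrep
  let U₀ := {g : GL D.Idx F // g ∈ S.genBy F (fun _ => True) ∧ s * g = g * s}
  let U : Equiv.Perm (Fin D.nroots) → Type u := fun w =>
    {g : GL D.Idx F // g ∈ S.genBy F (FlipsNeg w) ∧ s * g = g * s}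
  have hgrp : ∀ {P : ℕ → Prop} {g : GL D.Idx F}, g ∈ S.genBy F P → g ∈ D.group F := fun h =>
    S.pos_le_group (S.genBy_le_pos _ h)
  let val : (Σ w : wFix S z, (U₀ × D.diagonalSubgroup F) × U w.1) → GL D.Idx F := fun p =>
    p.2.1.1.1 * p.2.1.2 * rep p.1 * p.2.2.1
  have hval : ∀ p, val p ∈ D.group F ∧ s * val p = val p * s := fun p => by
    refine ⟨mul_mem (mul_mem (mul_mem (hgrp p.2.1.1.2.1) (S.diag_le_group p.2.1.2.2))
      (S.mono_le_group (hrep1 p.1))) (hgrp p.2.2.2.1), ?_⟩
    show Commute s (_ * _ * _ * _)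
    exact ((Commute.mul_right (p.2.1.1.2.2) (diag_comm S hz p.2.1.2.2)).mul_right (hrep3 p.1)).mul_right
      p.2.2.2.2
  let f : (Σ w : wFix S z, (U₀ × D.diagonalSubgroup F) × U w.1) →
      Subgroup.centralizer ({⟨s, S.diag_le_group hz⟩} : Set (D.group F)) := fun p =>
    ⟨⟨val p, (hval p).1⟩, Subgroup.mem_centralizer_singleton_iff.2 (Subtype.ext (hval p).2.symm)⟩
  have hposU : ∀ {P : ℕ → Prop} {g : GL D.Idx F}, g ∈ S.genBy F P → g ∈ D.posUnipotent F := fun h =>
    S.genBy_le_pos _ h
  have huniq : ∀ {u u' d d' : GL D.Idx F}, u ∈ D.posUnipotent F → u' ∈ D.posUnipotent F →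
      d ∈ D.diagonalSubgroup F → d' ∈ D.diagonalSubgroup F → u * d = u' * d' → u = u' ∧ d = d' := by
    intro u u' d d' hu hu' hd hd' e
    have h : u'⁻¹ * u ∈ D.posUnipotent F ⊓ D.diagonalSubgroup F := by
      refine Subgroup.mem_inf.2 ⟨mul_mem (inv_mem hu') hu, ?_⟩
      rw [show u'⁻¹ * u = u'⁻¹ * (u * d) * d⁻¹ by group, e, inv_mul_cancel_left]
      exact mul_mem hd' (inv_mem hd)
    rw [S.pos_inf_diag, Subgroup.mem_bot, inv_mul_eq_one] at h
    exact ⟨h.symm, mul_left_cancel (h ▸ e)⟩
  have hf : Function.Bijective f := by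
    refine ⟨fun p p' e => ?_, fun g => ?_⟩
    · obtain ⟨w, ⟨u, d⟩, x⟩ := p
      obtain ⟨w', ⟨u', d'⟩, x'⟩ := p'
      have e' : (u.1 * d) * rep w * x.1 = (u'.1 * d') * rep w' * x'.1 :=
        congrArg (fun q : Subgroup.centralizer ({⟨s, S.diag_le_group hz⟩} : Set (D.group F)) =>
          ((q : D.group F) : GL D.Idx F)) e
      have hb : ∀ (a : U₀) (b : D.diagonalSubgroup F), a.1 * (b : GL D.Idx F) ∈ D.borelSubgroup F :=
        fun a b => mul_mem (Subgroup.mem_sup_left (hposU a.2.1)) (Subgroup.mem_sup_right b.2)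
      have hd := S.cell_unique (hrep1 w) (hrep1 w') (hb u d)
        (Subgroup.mem_sup_left (hposU x.2.1)) (hb u' d') (Subgroup.mem_sup_left (hposU x'.2.1)) e'
      have hww : (w : Equiv.Perm (Fin D.nroots)) = w' := by
        refine S.acts_unique ?_ (hrep2 w')
        have h := S.acts_mul (hrep2 w) (S.acts_diag hd)
        rwa [mul_inv_cancel_left, mul_one] at h
      obtain rfl : w = w' := Subtype.ext hww
      obtain ⟨h1, h2⟩ := S.normal_form_unique (hrep2 w) (hb u d) (hb u' d') x.2.1 x'.2.1 e'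
      obtain ⟨h3, h4⟩ := huniq (hposU u.2.1) (hposU u'.2.1) d.2 d'.2 h1
      obtain rfl : u = u' := Subtype.ext h3
      obtain rfl : d = d' := Subtype.ext h4
      obtain rfl : x = x' := Subtype.ext h2
      rfl
    · have hc : s * (g.1 : GL D.Idx F) = g.1 * s :=
        (congrArg Subtype.val (Subgroup.mem_centralizer_singleton_iff.1 g.2)).symm
      obtain ⟨b, hb, n, hn, w, hwW, hw, v, hv, e⟩ := S.exists_normal_form g.1.2
      obtain ⟨u, hu, d, hd, rfl⟩ := S.mem_borel_iff.1 hb
      set ee := s * n * s⁻¹ * n⁻¹ with hee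
      have hed : ee ∈ D.diagonalSubgroup F := by
        rw [hee, show s * n * s⁻¹ * n⁻¹ = s * (n * s⁻¹ * n⁻¹) by group]
        exact mul_mem hz (S.mono_conj_diag hn (inv_mem hz))
      have hsd : s * d * s⁻¹ = d := (commute_conj S).1 (diag_comm S hz hd)
      have hv' : s * v * s⁻¹ ∈ S.uminus F w := by
        have : S.uminus F w ≤ (S.uminus F w).comap (MulAut.conj s).toMonoidHom :=
          S.genBy_le fun r h1 h3 h4 t => by
            show s * S.xU r t * s⁻¹ ∈ S.uminus F w
            rw [hs, S.dg_conj_xU z h3]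
            exact S.xU_mem_genBy h1 h3 h4 _
        exact this hv
      have hu' : s * u * s⁻¹ ∈ D.posUnipotent F := S.diag_conj_pos hz hu
      have eq1 : (s * u * s⁻¹ * (d * ee)) * n * (s * v * s⁻¹) = u * d * n * v := by
        conv_rhs => rw [← e, ← (commute_conj S).1 hc, e]
        rw [show s * (u * d * n * v) * s⁻¹ =
          (s * u * s⁻¹) * (s * d * s⁻¹) * (s * n * s⁻¹) * (s * v * s⁻¹) by group, hsd, hee]
        group
      obtain ⟨h1, h2⟩ := S.normal_form_unique hw
        (mul_mem (Subgroup.mem_sup_left hu') (Subgroup.mem_sup_right (mul_mem hd hed))) hb hv' hv eq1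
      obtain ⟨h3, h4⟩ := huniq hu' hu (mul_mem hd hed) hd h1
      have hne : s * n = n * s :=
        (commute_conj S).2 (mul_inv_eq_one.1 (hee ▸ (mul_eq_left.1 h4)))
      have hwF : w ∈ wFix S z := by
        unfold wFix
        simp only [Finset.mem_filter]
        exact ⟨S.mem_weylSet.2 hwW, (mono_commute_iff S hn hw hz).1 hne⟩
      let w₀ : wFix S z := ⟨w, hwF⟩
      have hdn : n * (rep w₀)⁻¹ ∈ D.diagonalSubgroup F := by
        obtain ⟨x, -, hx⟩ := S.exists_acts (Subgroup.inv_mem _ (hrep1 w₀))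
        have hv1 : w * x = 1 := by
          refine S.acts_unique (S.acts_mul (hrep2 w₀) hx) ?_
          rw [mul_inv_cancel]
          exact S.acts_diag (Subgroup.one_mem _)
        refine S.mem_diag_of_pos (mul_mem hn (inv_mem (hrep1 w₀))) (S.acts_mul hw hx) fun r hr => ?_
        rw [hv1]; exact hr
      have huP : u ∈ S.genBy F (fun _ => True) := by
        rw [show S.genBy F (fun _ => True) = D.posUnipotent F from le_antisymm (S.genBy_le_pos _)
          (by
            rw [S.posUnipotent_eq, Sys.tailU, Subgroup.closure_le]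
            rintro x ⟨r, t, h1, h2, rfl⟩
            exact S.xU_mem_genBy h1 h2 trivial t)]
        exact hu
      refine ⟨⟨w₀, (⟨u, huP, (commute_conj S).2 h3⟩,
        ⟨d * (n * (rep w₀)⁻¹), mul_mem hd hdn⟩), ⟨v, hv, (commute_conj S).2 h2⟩⟩,
        Subtype.ext (Subtype.ext ?_)⟩
      show u * (d * (n * (rep w₀)⁻¹)) * rep w₀ * v = g.1
      rw [e]; group
  rw [← Nat.card_eq_of_bijective f hf, Nat.card_sigma]
  have h0 : Nat.card U₀ = Nat.card F ^ subPos S z := by
    show Nat.card {g : GL D.Idx F // g ∈ S.genBy F (fun _ => True) ∧ S.dg z * g = g * S.dg z} = _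
    rw [card_fixed_genBy S z (fun _ => True) (by
      have : S.genBy F (fun _ => True) = D.posUnipotent F := le_antisymm (S.genBy_le_pos _) (by
        rw [S.posUnipotent_eq, Sys.tailU, Subgroup.closure_le]
        rintro x ⟨r, t, h1, h2, rfl⟩
        exact S.xU_mem_genBy h1 h2 trivial t)
      rw [this, S.card_pos]
      congr 1
      rw [show (Finset.range D.nroots).filter (fun r => D.nroots / 2 ≤ r ∧ True) =
        Finset.Ico (D.nroots / 2) D.nroots by ext; simp; omega, Nat.card_Ico]
      have := S.even_nroots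
      omega)]
    unfold subPos
    congr 2
    ext r
    simp
  have hU : ∀ w : wFix S z, Nat.card (U w.1) = Nat.card F ^ subLen S z w.1 := fun w => by
    show Nat.card {g : GL D.Idx F // g ∈ S.genBy F (FlipsNeg w.1) ∧ S.dg z * g = g * S.dg z} = _
    rw [card_fixed_genBy S z (FlipsNeg w.1) (by
      have h := S.card_uminus (hrep2 w)
      rw [Sys.uminus] at h
      rw [h]
      congr 1
      rw [wlen, invSet]
      symm
      refine Finset.card_bij (fun r hr => ⟨r, Finset.mem_range.1 (Finset.mem_filter.1 hr).1⟩)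
        (fun r hr => ?_) (fun a _ b _ e => congrArg Fin.val e) (fun x hx => ?_)
      · simp only [Finset.mem_filter, Finset.mem_univ, true_and] at hr ⊢
        exact ⟨hr.2.1, hr.2.2.2⟩
      · simp only [Finset.mem_filter, Finset.mem_univ, true_and] at hx
        exact ⟨x, by simp only [Finset.mem_filter, Finset.mem_range]
                     exact ⟨x.2, hx.1, x.2, hx.2⟩, rfl⟩)]
    unfold subLen
    congr 2
  simp only [Nat.card_prod, h0, hU, Finset.mul_sum]
  rw [← Finset.sum_coe_sort (wFix S z)]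
  exact Finset.sum_congr rfl fun w _ => by ring

end CfsgLib.Chev.OddInvol
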