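import Cfsg.Agent.Chev.OddInvol.Classes
import Cfsg.Agent.Chev.OddInvol.Centralizer

/-!
# The Poincaré polynomial of the stabiliser of a torus involution

The stabiliser is exhibited as a product of coset representatives along a chain of subgroups fixing
linear functionals; completeness follows by counting against the orbit.
-/

set_option autoImplicit false

namespace CfsgLib.Chev.OddInvol

open Cfsg.Lie CfsgLib.Chev CfsgLib.Chev.Sys

universe u

/-- A functional on roots. -/
noncomputable def phiAt (T : Tbl) (A : List (List ℤ)) (i r : ℕ) : ℤ :=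
  ((List.range T.l).map fun k => (A.getD i []).getD k 0 * T.vecAt r k).sum

/-- A positive root trivial on the character. -/
noncomputable def isPQ (T : Tbl) (ε r : ℕ) : Bool := Nat.ble (T.n / 2) r && !par T ε r

/-- The functionals are non-negative on the positive roots and non-positive on the others. -/
noncomputable def signOK (T : Tbl) (ε : ℕ) (A : List (List ℤ)) : Bool :=
  (List.range T.n).all fun r => par T ε r || (List.range T.l).all fun i =>
    cond (Nat.ble (T.n / 2) r) (decide (0 ≤ phiAt T A i r)) (decide (phiAt T A i r ≤ 0))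

/-- The check of one representative. -/
noncomputable def elemOK (T : Tbl) (ε : ℕ) (A : List (List ℤ)) (j : ℕ) (e : List ℕ × ℕ) : Bool :=
  e.1.all (fun q => Nat.blt q T.l) &&
  ((List.range T.n).all fun r =>
    (par T ε (act T e.1 r) == par T ε r) &&
    ((List.range T.l).all fun i => Nat.ble i j ||
      decide (phiAt T A i (act T e.1 r) = phiAt T A i r)) &&
    (!isPQ T ε r || !((List.range T.l).all fun i => Nat.blt i j || decide (phiAt T A i r = 0)) ||
      Nat.ble (T.n / 2) (act T e.1 r))) &&
  Nat.beq ((List.range T.n).filter fun r => isPQ T ε r && !Nat.ble (T.n / 2) (act T e.1 r)).length e.2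

/-- The coset representatives of a level have distinct keys. -/
noncomputable def keysOK (T : Tbl) (A : List (List ℤ)) (j : ℕ) (lev : List (List ℕ × ℕ)) : Bool :=
  decide (lev.map fun e => (List.range T.l).map fun i => phiAt T A j (act T e.1.reverse (T.simpleAt i))).Nodup

/-- The check of the chain. -/
noncomputable def chainTableOK (T : Tbl) (ε : ℕ) (A : List (List ℤ))
    (levels : List (List (List ℕ × ℕ))) : Bool :=
  signOK T ε A && Nat.beq levels.length T.l && (List.range T.l).all fun j =>
    keysOK T A j (levels.getD j []) && (levels.getD j []).all (elemOK T ε A j)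

variable {D : ChevalleyDatum} {T : Tbl} (hV : T.Valid D)

/-- The products of representatives. -/
noncomputable def fam (levels : List (List (List ℕ × ℕ))) : ℕ → Finset (Equiv.Perm (Fin D.nroots))
  | 0 => {1}
  | j + 1 => ((levels.getD j []).toFinset ×ˢ fam levels j).image
      fun p => (Tbl.Valid.toSys.{u} hV).wprod p.1.1 * p.2

/-- The relative length. -/
noncomputable def relLen (T : Tbl) (ε : ℕ) (w : Equiv.Perm (Fin D.nroots)) : ℕ :=
  (Finset.univ.filter fun r : Fin D.nroots =>
    isPQ T ε r = true ∧ Nat.ble (T.n / 2) (w r : Fin D.nroots) = false).card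

include hV

theorem fam_spec {ε : ℕ} {A : List (List ℤ)} {levels : List (List (List ℕ × ℕ))}
    (hOK : chainTableOK T ε A levels = true) :
    ∀ j ≤ T.l, (∀ w ∈ fam.{u} hV levels j, w ∈ (Tbl.Valid.toSys.{u} hV).weyl ∧ ∀ r : Fin D.nroots,
        par T ε (w r : Fin D.nroots) = par T ε r ∧
          ∀ i < T.l, j ≤ i → phiAt T A i (w r : Fin D.nroots) = phiAt T A i r) ∧
      (fam.{u} hV levels j).card = ((List.range j).map fun i => (levels.getD i []).length).prod ∧
      ∀ x : ℤ, ∑ w ∈ fam.{u} hV levels j, x ^ relLen T ε w =
        ((List.range j).map fun i => ((levels.getD i []).map fun e => x ^ e.2).sum).prod := by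
  classical
  set S := Tbl.Valid.toSys.{u} hV with hS
  have hl : D.rank = T.l := hV.hL.rank
  have hnr : D.nroots = T.n := hV.hL.nroots
  simp only [chainTableOK, Bool.and_eq_true, List.all_eq_true, List.mem_range] at hOK
  obtain ⟨⟨hsign, -⟩, hlev⟩ := hOK
  intro j
  induction j with
  | zero =>
    refine fun _ => ⟨fun w hw => ?_, by simp [fam], fun x => ?_⟩
    · rw [fam, Finset.mem_singleton] at hw
      subst hw
      exact ⟨one_mem _, fun r => ⟨rfl, fun _ _ _ => rfl⟩⟩
    · have h0 : relLen T ε (1 : Equiv.Perm (Fin D.nroots)) = 0 := by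
        rw [relLen, Finset.card_eq_zero]
        refine Finset.filter_eq_empty_iff.2 fun r _ h => ?_
        simp only [isPQ, Bool.and_eq_true, Equiv.Perm.one_apply] at h
        rw [h.1.1] at h
        exact absurd h.2 (by simp)
      simp [fam, h0]
  | succ j ih =>
    intro hj
    obtain ⟨hK, hcard, hsum⟩ := ih (Nat.le_of_succ_le hj)
    obtain ⟨hkeys, helem⟩ := hlev j hj
    simp only [keysOK, decide_eq_true_iff] at hkeys
    simp only [elemOK, Bool.and_eq_true, List.all_eq_true, List.mem_range, beq_iff_eq, Bool.or_eq_true,
      Bool.not_eq_true', decide_eq_true_iff] at helem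
    set lev := levels.getD j [] with hlv
    have hL : ∀ e ∈ lev, ∀ q ∈ e.1, q < T.l := fun e he q hq =>
      Nat.le_of_ble_eq_true ((helem e he).1.1 q hq)
    have hact : ∀ e ∈ lev, ∀ r : Fin D.nroots,
        ((S.wprod e.1 r : Fin D.nroots) : ℕ) = act T e.1 r := fun e he r => act_eq hV hl (hL e he) r
    have hact' : ∀ e ∈ lev, ∀ r : Fin D.nroots,
        (((S.wprod e.1)⁻¹ r : Fin D.nroots) : ℕ) = act T e.1.reverse r := fun e he r => by
      rw [Sys.wprod_inv]
      exact act_eq hV hl (fun q hq => hL e he q (List.mem_reverse.1 hq)) r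
    have hgP : ∀ e ∈ lev, ∀ r : Fin D.nroots, par T ε (S.wprod e.1 r : Fin D.nroots) = par T ε r ∧
        ∀ i < T.l, j + 1 ≤ i → phiAt T A i (S.wprod e.1 r : Fin D.nroots) = phiAt T A i r := by
      intro e he r
      rw [hact e he r]
      obtain ⟨⟨h1, h2⟩, -⟩ := (helem e he).1.2 r (hnr ▸ r.2)
      refine ⟨h1, fun i hi hji => ?_⟩
      rcases h2 i hi with h | h
      · exact absurd (Nat.le_of_ble_eq_true h) (by omega)
      · exact h
    -- the decomposition is unique
    have hinj : ∀ p ∈ lev.toFinset ×ˢ fam.{u} hV levels j, ∀ p' ∈ lev.toFinset ×ˢ fam.{u} hV levels j,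
        S.wprod p.1.1 * p.2 = S.wprod p'.1.1 * p'.2 → p = p' := by
      intro p hp p' hp' e
      rw [Finset.mem_product, List.mem_toFinset] at hp hp'
      have hk : ∀ (q : (List ℕ × ℕ) × Equiv.Perm (Fin D.nroots)), q.1 ∈ lev → q.2 ∈ fam.{u} hV levels j →
          ∀ i : Fin D.rank, phiAt T A j (((S.wprod q.1.1 * q.2)⁻¹ (S.sr i) : Fin D.nroots) : ℕ) =
            phiAt T A j (act T q.1.1.reverse (T.simpleAt i)) := by
        intro q hq hu i
        have h := ((hK _ hu).2 (q.2⁻¹ ((S.wprod q.1.1)⁻¹ (S.sr i)))).2 j (by omega) le_rfl
        rw [← Equiv.Perm.mul_apply q.2, mul_inv_cancel, Equiv.Perm.one_apply] at h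
        rw [_root_.mul_inv_rev, Equiv.Perm.mul_apply, ← h, hact' _ hq]
        exact congrArg (fun r => phiAt T A j (act T q.1.1.reverse r)) (Tbl.simpled hV.hL i)
      have hp1 : p.1 = p'.1 := by
        refine List.inj_on_of_nodup_map hkeys hp.1 hp'.1 (List.map_congr_left fun i hi => ?_)
        have hi' : i < D.rank := hl ▸ List.mem_range.1 hi
        rw [← hk p hp.1 hp.2 ⟨i, hi'⟩, ← hk p' hp'.1 hp'.2 ⟨i, hi'⟩, e]
      refine Prod.ext hp1 ?_
      rw [hp1] at e
      exact mul_left_cancel e
    -- additivity of the relative length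
    have hadd : ∀ e ∈ lev, ∀ u ∈ fam.{u} hV levels j, relLen T ε (S.wprod e.1 * u) = e.2 + relLen T ε u := by
      intro e he u hu
      obtain ⟨huW, huK⟩ := hK u hu
      set g := S.wprod e.1
      let Z : Fin D.nroots → Prop := fun r => ∀ i < T.l, j ≤ i → phiAt T A i r = 0
      have hZu : ∀ r, Z (u r) ↔ Z r := fun r => by
        constructor
        · exact fun h i hi hji => ((huK r).2 i hi hji) ▸ h i hi hji
        · exact fun h i hi hji => ((huK r).2 i hi hji).trans (h i hi hji)
      let neg : Fin D.nroots → Prop := fun r => Nat.ble (T.n / 2) r = false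
      have hQ : ∀ r : Fin D.nroots, isPQ T ε r = true ↔ ¬ neg r ∧ par T ε r = false := fun r => by
        simp only [isPQ, neg, Bool.and_eq_true, Bool.not_eq_true', Bool.not_eq_false]
      -- outside `Z` the positive roots stay positive under `u`
      have hout : ∀ r : Fin D.nroots, isPQ T ε r = true → ¬ Z r → isPQ T ε (u r : Fin D.nroots) = true := by
        intro r hr hz
        rw [hQ] at hr ⊢
        have hpar : par T ε (u r : Fin D.nroots) = false := (huK r).1.trans hr.2
        refine ⟨fun hneg => ?_, hpar⟩
        simp only [Z, not_forall] at hz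
        obtain ⟨i, hi, hji, hne⟩ := hz
        have a := List.all_eq_true.1 hsign r (List.mem_range.2 (hnr ▸ r.2))
        have b := List.all_eq_true.1 hsign (u r : Fin D.nroots) (List.mem_range.2 (hnr ▸ (u r).2))
        rw [hr.2, Bool.false_or, List.all_eq_true] at a
        rw [hpar, Bool.false_or, List.all_eq_true] at b
        have a' := a i (List.mem_range.2 hi)
        have b' := b i (List.mem_range.2 hi)
        have hrp : Nat.ble (T.n / 2) r = true := by simpa [neg] using hr.1
        rw [hrp, cond_true, decide_eq_true_iff] at a'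
        rw [show Nat.ble (T.n / 2) (u r : Fin D.nroots) = false from hneg, cond_false,
          decide_eq_true_iff, (huK r).2 i hi hji] at b'
        exact hne (le_antisymm b' a')
      -- `g` keeps the signs on `Z`
      have hgZ : ∀ r : Fin D.nroots, isPQ T ε r = true → Z r → ¬ neg (g r) := by
        intro r hr hz hneg
        obtain ⟨-, h3⟩ := (helem e he).1.2 r (hnr ▸ r.2)
        rcases h3 with (h | h) | h
        · rw [hr] at h; exact absurd h (by simp)
        · rw [List.all_eq_false] at h
          obtain ⟨i, hi, h⟩ := h
          simp only [Bool.or_eq_true, decide_eq_true_iff, not_or] at h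
          refine h.2 (hz i (List.mem_range.1 hi) ?_)
          by_contra hji
          exact h.1 (Nat.ble_eq_true_of_le (not_le.1 hji))
        · rw [← hact e he] at h
          rw [show Nat.ble (T.n / 2) (g r : Fin D.nroots) = false from hneg] at h
          exact absurd h (by simp)
      have hnegR : ∀ r : Fin D.nroots, (neg (negR S r) ↔ ¬ neg r) := fun r => by
        simp only [neg, Bool.not_eq_false]
        have e1 : ((negR S r : Fin D.nroots) : ℕ) = T.n - 1 - r := hV.negd' (hnr ▸ r.2)
        have h2 := S.even_nroots
        have h3 : (r : ℕ) < T.n := hnr ▸ r.2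
        rw [hnr] at h2
        constructor
        · intro h
          refine Nat.ble_eq_true_of_le ?_
          by_contra hlt
          exact (Bool.eq_false_iff.1 h) (Nat.ble_eq_true_of_le (by omega))
        · intro h
          rw [Bool.eq_false_iff]
          intro h'
          have := Nat.le_of_ble_eq_true h
          have := Nat.le_of_ble_eq_true h'
          omega
      have hparR : ∀ r : Fin D.nroots, par T ε (negR S r : Fin D.nroots) = par T ε r := fun r => by
        have hv : ∀ i < T.l, T.vecAt (negR S r : Fin D.nroots) i = - T.vecAt r i := fun i hi =>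
          S.vec_neg r r.2 i (hl ▸ hi)
        have hsum : ((List.range T.l).map fun i => cond (ε.testBit i) (T.vecAt (negR S r : Fin D.nroots) i) 0).sum =
            - ((List.range T.l).map fun i => cond (ε.testBit i) (T.vecAt r i) 0).sum := by
          rw [sum_range_list, sum_range_list, ← Finset.sum_neg_distrib]
          refine Finset.sum_congr rfl fun i hi => ?_
          cases ε.testBit i
          · simp
          · simp only [cond_true]; exact hv i (Finset.mem_range.1 hi)
        rw [par, par, hsum]
        exact decide_eq_decide.2 (by omega)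
      have hgneg : ∀ r : Fin D.nroots, g (negR S r) = negR S (g r) := fun r =>
        Fin.ext (S.wprod_neg (fun q hq => hl.symm ▸ hL e he q hq) r _ rfl)
      obtain ⟨Lu, hLu, rfl⟩ := S.exists_wprod huW
      have huneg : ∀ r : Fin D.nroots, S.wprod Lu (negR S r) = negR S (S.wprod Lu r) := fun r =>
        Fin.ext (S.wprod_neg hLu r _ rfl)
      set u := S.wprod Lu
      have hin : ∀ r : Fin D.nroots, isPQ T ε r = true → Z r → (neg (g (u r)) ↔ neg (u r)) := by
        intro r hr hz
        have hzu : Z (u r) := (hZu r).2 hz
        have hpar : par T ε (u r : Fin D.nroots) = false := (huK r).1.trans ((hQ r).1 hr).2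
        by_cases hn : neg (u r)
        · refine iff_of_true ?_ hn
          have hz' : Z (negR S (u r)) := fun i hi hji => by
            have hv : ∀ k < T.l, T.vecAt (negR S (u r) : Fin D.nroots) k = - T.vecAt (u r : Fin D.nroots) k :=
              fun k hk => S.vec_neg _ (u r).2 k (hl ▸ hk)
            have e1 := hzu i hi hji
            show phiAt T A i (negR S (u r) : Fin D.nroots) = 0
            rw [phiAt, sum_range_list] at e1 ⊢
            rw [Finset.sum_congr rfl (fun k hk => by rw [hv k (Finset.mem_range.1 hk), mul_neg]),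
              Finset.sum_neg_distrib, e1, neg_zero]
          have hpq : isPQ T ε (negR S (u r) : Fin D.nroots) = true :=
            (hQ _).2 ⟨fun h => (hnegR _).1 h hn, by rw [hparR, hpar]⟩
          have := hgZ _ hpq hz'
          rw [hgneg, hnegR, not_not] at this
          exact this
        · exact iff_of_false (hgZ _ ((hQ _).2 ⟨hn, hpar⟩) hzu) hn
      set P := Finset.univ.filter fun r : Fin D.nroots => isPQ T ε r = true with hP
      have hmemP : ∀ r, r ∈ P ↔ isPQ T ε r = true := fun r => by simp [P]
      have hrel : ∀ v : Equiv.Perm (Fin D.nroots), relLen T ε v =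
          (P.filter fun r => Z r ∧ neg (v r)).card + (P.filter fun r => ¬ Z r ∧ neg (v r)).card := by
        intro v
        rw [← Finset.card_union_of_disjoint (Finset.disjoint_filter.2 fun r _ h h' => h'.1 h.1),
          ← Finset.filter_or, relLen, hP, Finset.filter_filter]
        congr 1
        refine Finset.filter_congr fun r _ => ?_
        show _ ∧ neg (v r) ↔ _
        tauto
      have hd : e.2 = (P.filter fun r => neg (g r)).card := by
        have h := Nat.eq_of_beq_eq_true (helem e he).2
        rw [← h, ← List.toFinset_card_of_nodup (List.nodup_range.filter _)]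
        refine Finset.card_bij' (fun r hr => (⟨r, hnr ▸ List.mem_range.1
            (List.mem_filter.1 (List.mem_toFinset.1 hr)).1⟩ : Fin D.nroots))
          (fun r _ => (r : ℕ)) (fun r hr => ?_) (fun r hr => ?_) (fun r _ => rfl) (fun r _ => rfl)
        · rw [List.mem_toFinset, List.mem_filter, Bool.and_eq_true, Bool.not_eq_true'] at hr
          rw [Finset.mem_filter, hmemP]
          exact ⟨hr.2.1, (congrArg (Nat.ble (T.n / 2)) (hact e he _)).trans hr.2.2⟩
        · rw [Finset.mem_filter, hmemP] at hr
          rw [List.mem_toFinset, List.mem_filter, Bool.and_eq_true, Bool.not_eq_true']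
          exact ⟨List.mem_range.2 (hnr ▸ r.2), hr.1, by rw [← hact e he]; exact hr.2⟩
      have h1 : (P.filter fun r => Z r ∧ neg ((g * u) r)).card = relLen T ε u := by
        rw [hrel u]
        have h0 : (P.filter fun r => ¬ Z r ∧ neg (u r)) = ∅ :=
          Finset.filter_eq_empty_iff.2 fun r hr h => ((hQ _).1 (hout r ((hmemP r).1 hr) h.1)).1 h.2
        rw [h0, Finset.card_empty, add_zero]
        congr 1
        exact Finset.filter_congr fun r hr => and_congr_right fun hz => hin r ((hmemP r).1 hr) hz
      have h2 : (P.filter fun r => ¬ Z r ∧ neg ((g * u) r)).card = e.2 := by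
        have himg : (P.filter fun r => ¬ Z r).image u = P.filter fun r => ¬ Z r := by
          refine Finset.eq_of_subset_of_card_le ?_ (le_of_eq (Finset.card_image_of_injective _ u.injective).symm)
          intro x hx
          rw [Finset.mem_image] at hx
          obtain ⟨r, hr, rfl⟩ := hx
          rw [Finset.mem_filter, hmemP] at hr ⊢
          exact ⟨hout r hr.1 hr.2, fun h => hr.2 ((hZu r).1 h)⟩
        have h3 : P.filter (fun r => neg (g r)) = (P.filter fun r => ¬ Z r).filter fun r => neg (g r) := by
          ext r
          simp only [Finset.mem_filter, hmemP]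
          exact ⟨fun h => ⟨⟨h.1, fun hz => hgZ r h.1 hz h.2⟩, h.2⟩, fun h => ⟨h.1.1, h.2⟩⟩
        rw [hd, h3]
        conv_rhs => rw [← himg, Finset.filter_image, Finset.card_image_of_injective _ u.injective,
          Finset.filter_filter]
        rfl
      rw [hrel (g * u), h1, h2, add_comm]
    have hnd : lev.Nodup := hkeys.of_map
    refine ⟨fun w hw => ?_, ?_, fun x => ?_⟩
    · rw [fam, Finset.mem_image] at hw
      obtain ⟨⟨e, u⟩, hp, rfl⟩ := hw
      rw [Finset.mem_product, List.mem_toFinset] at hp
      refine ⟨mul_mem (S.wprod_mem_weyl _) (hK u hp.2).1, fun r => ⟨?_, fun i hi hji => ?_⟩⟩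
      · exact ((hgP e hp.1 (u r)).1).trans ((hK u hp.2).2 r).1
      · exact ((hgP e hp.1 (u r)).2 i hi hji).trans (((hK u hp.2).2 r).2 i hi (by omega))
    · rw [fam, Finset.card_image_of_injOn (fun p hp p' hp' => hinj p hp p' hp'), Finset.card_product,
        List.toFinset_card_of_nodup hnd, hcard, List.range_succ, List.map_append, List.prod_append]
      simp [hlv, mul_comm]
    · rw [fam, Finset.sum_image (fun p hp p' hp' => hinj p hp p' hp'), Finset.sum_product]
      rw [List.range_succ, List.map_append, List.prod_append, ← hsum]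
      simp only [List.map_cons, List.map_nil, List.prod_cons, List.prod_nil, mul_one]
      rw [← hlv, ← List.sum_toFinset _ hnd, Finset.sum_mul_sum]
      rw [Finset.sum_comm]
      refine Finset.sum_congr rfl fun a ha => Finset.sum_congr rfl fun b hb => ?_
      rw [hadd b (List.mem_toFinset.1 hb) a ha, pow_add, mul_comm]

end CfsgLib.Chev.OddInvol
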