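import Cfsg.Agent.Chev.OddInvol.Reduce
import Cfsg.Agent.Chev.WeylPoincare

/-!
# Involutions of the torus up to conjugacy, and their centralisers
-/

set_option autoImplicit false

namespace CfsgLib.Chev.OddInvol

open Cfsg.Lie CfsgLib.Chev CfsgLib.Chev.Sys

universe u

/-- The parity of a root on the set of fundamental roots given by the bits of `τ`. -/
noncomputable def par (T : Tbl) (τ r : ℕ) : Bool :=
  decide (((List.range T.l).map fun i => cond (τ.testBit i) (T.vecAt r i) 0).sum % 2 = 1)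

/-- The torus element of a set of fundamental roots. -/
def zb {F : Type u} [Field F] (τ : ℕ) : ℕ → Fˣ := fun i => if τ.testBit i then -1 else 1

/-- One row of the orbit table: a fundamental reflection, the image, a rank and the representative. -/
noncomputable def stepOK (T : Tbl) (tab : List (ℕ × ℕ × ℕ × ℕ)) (τ : ℕ) : Bool :=
  let e := tab.getD τ (0, 0, 0, 0)
  let e' := tab.getD e.2.1 (0, 0, 0, 0)
  cond (Nat.beq e.2.2.1 0) (Nat.beq e.2.2.2 τ)
    (Nat.blt e.1 T.l && Nat.blt 0 e.2.1 && Nat.blt e.2.1 (2 ^ T.l) && Nat.blt e'.2.2.1 e.2.2.1 &&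
      Nat.beq e'.2.2.2 e.2.2.2 &&
      (List.range T.l).all fun i => e.2.1.testBit i == par T τ (T.piAt e.1 (T.simpleAt i)))

/-- The check of the orbit table. -/
noncomputable def orbTableOK (T : Tbl) (tab : List (ℕ × ℕ × ℕ × ℕ)) : Bool :=
  (List.range (2 ^ T.l - 1)).all fun i => stepOK T tab (i + 1)

/-- The representative of the orbit of `τ`. -/
def repOf (tab : List (ℕ × ℕ × ℕ × ℕ)) (τ : ℕ) : ℕ := (tab.getD τ (0, 0, 0, 0)).2.2.2

variable {D : ChevalleyDatum} {T : Tbl} (hV : T.Valid D) {F : Type u} [Field F]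

include hV

theorem neg_one_ne (h2 : (2 : F) ≠ 0) : (-1 : Fˣ) ≠ 1 := fun e => h2 (by
  have := congrArg Units.val e
  rw [Units.val_neg, Units.val_one] at this
  linear_combination -this)

/-- The values of the torus element. -/
theorem chi_zb (τ r : ℕ) :
    (Tbl.Valid.toSys.{u} hV).chi (zb (F := F) τ) r = if par T τ r then -1 else 1 := by
  set S := Tbl.Valid.toSys.{u} hV
  have hl : D.rank = T.l := hV.hL.rank
  have h1 : ∀ i, (zb (F := F) τ i) ^ S.vec r i = (-1 : Fˣ) ^ (cond (τ.testBit i) (T.vecAt r i) 0) :=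
    fun i => by
      unfold zb
      cases τ.testBit i <;> simp <;> rfl
  rw [Sys.chi, Finset.prod_congr rfl fun i _ => h1 i, ← zpow_sum_range, hl, ← sum_range_list, par]
  split_ifs with e
  · rw [decide_eq_true_iff] at e
    exact (Int.odd_iff.2 e).neg_one_zpow
  · rw [decide_eq_true_iff] at e
    exact (Int.even_iff.2 (by omega)).neg_one_zpow

theorem par_congr (h2 : (2 : F) ≠ 0) {τ τ' r r' : ℕ}
    (e : (Tbl.Valid.toSys.{u} hV).chi (zb (F := F) τ) r =
      (Tbl.Valid.toSys.{u} hV).chi (zb (F := F) τ') r') : par T τ r = par T τ' r' := by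
  rw [chi_zb hV, chi_zb hV] at e
  have := neg_one_ne hV h2
  revert e
  cases par T τ r <;> cases par T τ' r' <;> simp [this, this.symm]

/-- Each torus involution is carried to its representative. -/
theorem exists_rep (h2 : (2 : F) ≠ 0) {tab : List (ℕ × ℕ × ℕ × ℕ)} (hOK : orbTableOK T tab = true)
    {τ : ℕ} (h0 : τ ≠ 0) (hτ : τ < 2 ^ T.l) :
    GC D ((Tbl.Valid.toSys.{u} hV).dg (zb (F := F) τ))
        ((Tbl.Valid.toSys.{u} hV).dg (zb (F := F) (repOf tab τ))) ∧
      ∃ g ∈ (Tbl.Valid.toSys.{u} hV).weyl,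
        ∀ r : Fin D.nroots, par T τ r = par T (repOf tab τ) (g r : Fin D.nroots) := by
  set S := Tbl.Valid.toSys.{u} hV
  have hl : D.rank = T.l := hV.hL.rank
  induction hk : (tab.getD τ (0, 0, 0, 0)).2.2.1 using Nat.strong_induction_on generalizing τ with
  | _ k ih =>
    have h := List.all_eq_true.1 hOK (τ - 1) (List.mem_range.2 (by omega))
    rw [show τ - 1 + 1 = τ by omega] at h
    simp only [stepOK] at h
    by_cases hz : (tab.getD τ (0, 0, 0, 0)).2.2.1 = 0
    · rw [show Nat.beq (tab.getD τ (0, 0, 0, 0)).2.2.1 0 = true by rw [hz]; rfl, cond_true] at h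
      rw [show repOf tab τ = τ from Nat.eq_of_beq_eq_true h]
      exact ⟨gc_refl _, 1, one_mem _, fun r => rfl⟩
    · rw [show Nat.beq (tab.getD τ (0, 0, 0, 0)).2.2.1 0 = false by
        cases hb : Nat.beq (tab.getD τ (0, 0, 0, 0)).2.2.1 0
        · rfl
        · exact absurd (Nat.eq_of_beq_eq_true hb) hz, cond_false] at h
      simp only [Bool.and_eq_true, List.all_eq_true, beq_iff_eq, List.mem_range] at h
      obtain ⟨⟨⟨⟨⟨hq, hpos⟩, hlt⟩, hrk⟩, hrep⟩, hbits⟩ := h
      generalize hq' : (tab.getD τ (0, 0, 0, 0)).1 = q at hq hbits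
      generalize hτ' : (tab.getD τ (0, 0, 0, 0)).2.1 = τ' at hpos hlt hrk hrep hbits
      have hqr : q < D.rank := hl ▸ Nat.le_of_ble_eq_true hq
      obtain ⟨hgc, g, hg, hgp⟩ := ih _ (hk ▸ Nat.le_of_ble_eq_true hrk)
        (Nat.ne_of_gt (Nat.le_of_ble_eq_true hpos)) (Nat.le_of_ble_eq_true hlt) rfl
      have hrep' : repOf tab τ = repOf tab τ' := by
        rw [repOf, repOf]; exact (Nat.eq_of_beq_eq_true hrep).symm
      have htw : ∀ i < D.rank, S.tw q (zb (F := F) τ) i = zb τ' i := fun i hi => by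
        rw [Sys.tw, chi_zb hV]
        show (if par T τ (T.piAt q (D.simple i)) = true then (-1 : Fˣ) else 1) = _
        rw [Tbl.simpled hV.hL, ← hbits i (hl ▸ hi)]
        rfl
      rw [hrep']
      refine ⟨gc_trans ⟨S.nU (D.simple q) 1, S.mono_le_group (S.nU_mem_mono (S.simple_lt hqr) (1 : Fˣ)),
        ?_⟩ hgc, g * S.refl q, mul_mem hg (S.refl_mem_weyl q), fun r => ?_⟩
      · rw [S.nU_dg hqr, mul_inv_cancel_right]
        exact S.dg_congr htw
      · have hc : par T τ' (S.refl q r : Fin D.nroots) = par T τ r := by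
          refine par_congr hV h2 ?_
          rw [← S.chi_congr htw, S.chi_tw _ hqr (Fin.is_lt _), S.refl_apply hqr, S.pi_pi q hqr r r.2]
        rw [← hc, hgp]
        rfl

/-- Every involution of the torus is conjugate to a representative. -/
theorem exists_gc_rep (h2 : (2 : F) ≠ 0) {tab : List (ℕ × ℕ × ℕ × ℕ)} (hOK : orbTableOK T tab = true)
    {t : GL D.Idx F} (ht : t ∈ D.diagonalSubgroup F) (htt : t * t = 1) (ht1 : t ≠ 1) :
    ∃ τ < 2 ^ T.l, τ ≠ 0 ∧ GC D t ((Tbl.Valid.toSys.{u} hV).dg (zb (F := F) (repOf tab τ))) := by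
  classical
  set S := Tbl.Valid.toSys.{u} hV
  have hl : D.rank = T.l := hV.hL.rank
  obtain ⟨z, rfl⟩ := S.exists_dg ht
  have hone : S.dg (1 : ℕ → Fˣ) = 1 := map_one S.dgHom
  let P : Fin T.l → Bool := fun i => decide (z i = -1)
  set τ := Nat.ofBits P
  have hz : ∀ i < D.rank, z i = zb τ i := fun i hi => by
    have h := S.dg_inj (z := z * z) (z' := 1) (by rw [S.dg_mul, htt, hone]) hi
    rw [Pi.mul_apply, Pi.one_apply] at h
    unfold zb
    rw [Nat.testBit_ofBits_lt P i (hl ▸ hi)]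
    by_cases e : z i = -1
    · simp [P, e]
    · simp only [P, e, decide_false, Bool.false_eq_true, if_false]
      have hv := congrArg Units.val h
      rw [Units.val_mul, Units.val_one] at hv
      rcases mul_self_eq_one_iff.1 hv with e' | e'
      · exact Units.ext e'
      · exact absurd (Units.ext (by rw [e', Units.val_neg, Units.val_one])) e
  have hτ0 : τ ≠ 0 := fun e => ht1 (by
    rw [← hone]
    refine S.dg_congr fun i hi => ?_
    rw [hz i hi, e]
    simp [zb])
  refine ⟨τ, Nat.ofBits_lt_two_pow P, hτ0, ?_⟩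
  rw [S.dg_congr hz]
  exact (exists_rep hV h2 hOK hτ0 (Nat.ofBits_lt_two_pow P)).1

end CfsgLib.Chev.OddInvol
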