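import Cfsg.Agent.Chev.OddInvol.Main
import Cfsg.Agent.Chev.DataF4

/-! Certificates for the involutions of type F4 over fields of odd order. -/

set_option autoImplicit false
set_option maxRecDepth 100000
set_option maxHeartbeats 4000000
set_option linter.style.longLine false

namespace CfsgLib.Chev.OddInvol.DataF4

/-- Longest elements and reasons. -/
def wl : List (List ℕ × Wit) :=
  [([0], .sq 0 7),
   ([1], .sq 1 8),
   ([0, 1, 0], .imp 0),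
   ([2], .sq 2 2),
   ([0, 2], .sq 0 7),
   ([1, 2, 1, 2], .sq 2 9),
   ([0, 1, 0, 2, 1, 0, 2, 1, 2], .sq 2 9),
   ([3], .sq 3 1),
   ([0, 3], .sq 0 7),
   ([1, 3], .sq 1 8),
   ([0, 1, 0, 3], .imp 0),
   ([2, 3, 2], .imp 2),
   ([0, 2, 3, 2], .imp 2),
   ([1, 2, 1, 2, 3, 2, 1, 2, 3], .tri 2 3 26),
   ([0, 1, 0, 2, 1, 0, 2, 1, 2, 3, 2, 1, 0, 2, 1, 2, 3, 2, 1, 0, 2, 1, 2, 3], .tri 0 1 34)]

/-- The orbits on the torus involutions. -/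
def tab : List (ℕ × ℕ × ℕ × ℕ) :=
  [(0, 0, 0, 0),
   (0, 0, 0, 1),
   (1, 3, 2, 1),
   (0, 1, 1, 1),
   (0, 0, 0, 4),
   (2, 15, 3, 4),
   (1, 7, 5, 4),
   (2, 13, 4, 4),
   (3, 12, 7, 4),
   (3, 13, 4, 4),
   (3, 14, 2, 4),
   (3, 15, 3, 4),
   (2, 6, 6, 4),
   (0, 15, 3, 4),
   (2, 4, 1, 4),
   (1, 14, 2, 4)]

/-- A class of involutions. -/
def cls0 : ClassData where
  ε := 1
  N := 16
  degs := [2, 4, 6, 8]
  A := [[-1, 0, 2, 0], [-2, 2, 0, 0], [0, 0, 0, 2], [1, 0, 0, 0]]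
  levels :=
    [[([], 0), ([2], 1)],
     [([], 0), ([1], 1), ([2, 1], 2), ([1, 2, 1], 3)],
     [([], 0), ([3], 1), ([2, 3], 2), ([1, 2, 3], 3), ([2, 1, 2, 3], 4), ([3, 2, 1, 2, 3], 5)],
     [([], 0), ([0, 1, 2, 1, 0], 1), ([0, 1, 3, 2, 1, 0], 2), ([0, 2, 1, 3, 2, 1, 0], 3), ([1, 0, 2, 1, 3, 2, 1, 0], 4), ([2, 1, 0, 2, 1, 3, 2, 1, 0], 5), ([3, 2, 1, 0, 2, 1, 3, 2, 1, 0], 6), ([0, 1, 2, 1, 0, 3, 2, 1, 0, 2, 1, 3, 2, 1, 0], 7)]]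

/-- A class of involutions. -/
def cls1 : ClassData where
  ε := 4
  N := 10
  degs := [2, 2, 4, 6]
  A := [[2, 0, 0, 0], [0, 0, -1, 2], [0, 0, 1, 0], [0, 2, -2, 0]]
  levels :=
    [[([], 0), ([0], 1)],
     [([], 0), ([3], 1)],
     [([], 0), ([2, 1, 2, 3, 2, 1, 2], 1), ([0, 2, 1, 2, 3, 2, 1, 2], 2), ([2, 1, 0, 3, 2, 1, 0, 2, 1, 3, 2], 3)],
     [([], 0), ([1], 1), ([0, 1], 2), ([2, 1, 2, 3, 2, 1, 0, 2, 1], 3), ([0, 2, 1, 2, 3, 2, 1, 0, 2, 1], 4), ([1, 0, 2, 1, 2, 3, 2, 1, 0, 2, 1], 5)]]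

theorem red_ok : redOK CfsgLib.Chev.DataF4.tbl wl = true := by decide +kernel

theorem tab_ok : orbTableOK CfsgLib.Chev.DataF4.tbl tab = true := by decide +kernel

theorem cls0_ok : classOK CfsgLib.Chev.DataF4.tbl tab 1152 cls0 = true := by decide +kernel

theorem cls1_ok : classOK CfsgLib.Chev.DataF4.tbl tab 1152 cls1 = true := by decide +kernel

theorem two_ok : twoOK CfsgLib.Chev.DataF4.tbl tab cls0.ε cls1.ε = true := by decide +kernel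

end CfsgLib.Chev.OddInvol.DataF4
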