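import Cfsg.Agent.Chev.OddInvol.Main
import Cfsg.Agent.Chev.WeylPoincare

/-! The order of the Weyl group from the coset orbits. -/

set_option autoImplicit false

namespace CfsgLib.Chev.OddInvol

open Cfsg.Lie CfsgLib.Chev CfsgLib.Chev.Sys

universe u

theorem card_weylSet {D : ChevalleyDatum} (S : Sys.{u} D) {C : List (List ℤ)} (hC : CartanOK D C)
    {orbs : List (List (List ℤ × ℕ))} (h : ∀ k < D.rank, orbOK D.rank C k (orbs.getD k []) = true) :
    S.weylSet.card = ((List.range D.rank).map fun j => (orbs.getD j []).length).prod := by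
  have e := S.poincare_chain hC h 1 D.rank le_rfl
  have hset : S.wfin D.rank = S.weylSet := by
    ext w
    rw [S.mem_wfin, S.wsub_rank, S.mem_weylSet]
  rw [hset] at e
  simp only [one_pow, Finset.sum_const, List.map_const', List.sum_replicate, smul_eq_mul, mul_one,
    nsmul_eq_mul] at e
  apply Nat.cast_injective (R := ℤ)
  rw [Nat.cast_list_prod, List.map_map]
  exact e

end CfsgLib.Chev.OddInvol
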