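import Cfsg.Agent.Chev.OddInvol.DataE8
import Cfsg.Agent.Chev.OddInvol.WeylCard
import Cfsg.Agent.Chev.PoincareE8
import Cfsg.Agent.Chev.Inst
import Cfsg.Agent.Chev.TorusCert
import Cfsg.Agent.Chev.G2Odd.Main

/-! The involutions of `E₈(q)`, `q` odd. -/

set_option autoImplicit false
set_option maxRecDepth 100000

namespace CfsgLib.Chev.OddInvol

open Cfsg.Lie CfsgLib.Chev

universe u

theorem weyl_card_E8 : (Tbl.Valid.toSys.{u} CfsgLib.Chev.DataE8.valid).weylSet.card = 696729600 := by
  have h : ∀ k < chevE8.rank, orbOK chevE8.rank PoincareE8.cart k (PoincareE8.orbs.getD k []) = true := by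
    intro k hk
    rw [PoincareE8.rank_eq] at hk ⊢
    match k, hk with
    | 0, _ => exact PoincareE8.orb0_ok
    | 1, _ => exact PoincareE8.orb1_ok
    | 2, _ => exact PoincareE8.orb2_ok
    | 3, _ => exact PoincareE8.orb3_ok
    | 4, _ => exact PoincareE8.orb4_ok
    | 5, _ => exact PoincareE8.orb5_ok
    | 6, _ => exact PoincareE8.orb6_ok
    | 7, _ => exact PoincareE8.orb7_ok
    | k + 8, hk => exact absurd hk (Nat.not_lt.2 (Nat.le_add_left 8 k))
  rw [card_weylSet _ PoincareE8.cart_ok h, PoincareE8.rank_eq]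
  decide +kernel

/-- The two classes of involutions of `E₈(q)`. -/
theorem main_E8 {F : Type u} [Field F] [Fintype F] (hF : Odd (Fintype.card F)) :
    ∃ s t : ↥(chevE8.group F), orderOf s = 2 ∧ orderOf t = 2 ∧ ¬ IsConj s t ∧
      (∀ v : ↥(chevE8.group F), orderOf v = 2 → IsConj v s ∨ IsConj v t) ∧
      Nat.card (Subgroup.centralizer ({s} : Set ↥(chevE8.group F))) =
        Fintype.card F ^ 56 * (Fintype.card F ^ 8 - 1) *
          ∏ i ∈ Finset.Icc 1 7, (Fintype.card F ^ (2 * i) - 1) ∧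
      Nat.card (Subgroup.centralizer ({t} : Set ↥(chevE8.group F))) =
        Fintype.card F ^ 64 * (Fintype.card F ^ 2 - 1) ^ 2 * (Fintype.card F ^ 6 - 1) *
          (Fintype.card F ^ 8 - 1) * (Fintype.card F ^ 10 - 1) * (Fintype.card F ^ 12 - 1) *
          (Fintype.card F ^ 14 - 1) * (Fintype.card F ^ 18 - 1) := by
  have hT : Nat.card (chevE8.diagonalSubgroup F) = (Nat.card F - 1) ^ chevE8.rank := by
    have h := torE8.card_diagonal sysE8 F
    rw [Finset.prod_eq_one (fun i _ => by
      have : torE8.d i = 1 := by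
        revert i
        decide +kernel
      rw [this, Nat.gcd_one_right]), one_mul] at h
    exact h
  have hq : 2 ≤ Fintype.card F := Fintype.one_lt_card
  obtain ⟨s, t, h1, h2, h3, h4, h5, h6⟩ := two_classes.{u} CfsgLib.Chev.DataE8.valid
    (F := F) (Nat.card_eq_fintype_card (α := F) ▸ hF) (G2Odd.two_ne_zero' hF) DataE8.red_ok
    DataE8.tab_ok (by decide +kernel) weyl_card_E8 DataE8.cls0_ok DataE8.cls1_ok DataE8.two_ok hT (by
      rw [Nat.card_eq_fintype_card]
      simp only [DataE8.cls0, DataE8.cls1, List.map_cons, List.map_nil, List.prod_cons, List.prod_nil,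
        mul_one]
      intro e
      generalize Fintype.card F = q at e hq
      have h : ∀ k, 0 < k → Nat.Coprime q (q ^ k - 1) := fun k hk => by
        rw [Nat.coprime_comm]
        refine Nat.Coprime.coprime_dvd_right (dvd_pow_self q (Nat.ne_of_gt hk)) ?_
        have h1 : 1 ≤ q ^ k := Nat.one_le_pow _ _ (by omega)
        conv_rhs => rw [show q ^ k = 1 + (q ^ k - 1) by omega]
        exact Nat.coprime_add_self_right.2 (Nat.coprime_one_right _)
      have hc : Nat.Coprime q ((q ^ 2 - 1) * ((q ^ 4 - 1) * ((q ^ 6 - 1) * ((q ^ 8 - 1) * ((q ^ 8 - 1) *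
          ((q ^ 10 - 1) * ((q ^ 12 - 1) * (q ^ 14 - 1)))))))) :=
        (h 2 (by norm_num)).mul_right ((h 4 (by norm_num)).mul_right ((h 6 (by norm_num)).mul_right
          ((h 8 (by norm_num)).mul_right ((h 8 (by norm_num)).mul_right ((h 10 (by norm_num)).mul_right
            ((h 12 (by norm_num)).mul_right (h 14 (by norm_num))))))))
      rw [show (64 : ℕ) = 56 + 8 by norm_num, pow_add, mul_assoc (q ^ 56)] at e
      have e' := Nat.eq_of_mul_eq_mul_left (pow_pos (by omega) 56) e
      have hd : q ∣ q ^ 8 * ((q ^ 2 - 1) * ((q ^ 2 - 1) * ((q ^ 6 - 1) * ((q ^ 8 - 1) * ((q ^ 10 - 1) *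
          ((q ^ 12 - 1) * ((q ^ 14 - 1) * (q ^ 18 - 1)))))))) :=
        Dvd.dvd.mul_right (dvd_pow_self q (by norm_num)) _
      rw [← e'] at hd
      have := Nat.Coprime.eq_one_of_dvd hc hd
      omega)
  refine ⟨s, t, h1, h2, h3, h4, ?_, ?_⟩
  · rw [h5, Nat.card_eq_fintype_card, Finset.prod_Icc_succ_top (by norm_num : 1 ≤ 7),
      Finset.prod_Icc_succ_top (by norm_num : 1 ≤ 6), Finset.prod_Icc_succ_top (by norm_num : 1 ≤ 5),
      Finset.prod_Icc_succ_top (by norm_num : 1 ≤ 4), Finset.prod_Icc_succ_top (by norm_num : 1 ≤ 3),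
      Finset.prod_Icc_succ_top (by norm_num : 1 ≤ 2), Finset.Icc_self, Finset.prod_singleton]
    simp only [DataE8.cls0, List.map_cons, List.map_nil, List.prod_cons, List.prod_nil]
    ring
  · rw [h6, Nat.card_eq_fintype_card]
    simp only [DataE8.cls1, List.map_cons, List.map_nil, List.prod_cons, List.prod_nil]
    ring

end CfsgLib.Chev.OddInvol
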