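import Cfsg.Agent.Chev.OddInvol.DataF4
import Cfsg.Agent.Chev.OddInvol.WeylCard
import Cfsg.Agent.Chev.PoincareF4
import Cfsg.Agent.Chev.InstSmall
import Cfsg.Agent.Chev.TorusCert
import Cfsg.Agent.Chev.G2Odd.Main

/-! The involutions of `F₄(q)`, `q` odd. -/

set_option autoImplicit false

namespace CfsgLib.Chev.OddInvol

open Cfsg.Lie CfsgLib.Chev

universe u

theorem weyl_card_F4 : (Tbl.Valid.toSys.{u} CfsgLib.Chev.DataF4.valid).weylSet.card = 1152 := by
  have h : ∀ k < chevF4.rank, orbOK chevF4.rank PoincareF4.cart k (PoincareF4.orbs.getD k []) = true := by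
    intro k hk
    rw [PoincareF4.rank_eq] at hk ⊢
    match k, hk with
    | 0, _ => exact PoincareF4.orb0_ok
    | 1, _ => exact PoincareF4.orb1_ok
    | 2, _ => exact PoincareF4.orb2_ok
    | 3, _ => exact PoincareF4.orb3_ok
    | k + 4, hk => exact absurd hk (Nat.not_lt.2 (Nat.le_add_left 4 k))
  rw [card_weylSet _ PoincareF4.cart_ok h, PoincareF4.rank_eq]
  decide +kernel

theorem two_ne_zero_of_odd {F : Type u} [Field F] [Fintype F] (hF : Odd (Fintype.card F)) :
    (2 : F) ≠ 0 := G2Odd.two_ne_zero' hF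

/-- The two classes of involutions of `F₄(q)`. -/
theorem main_F4 {F : Type u} [Field F] [Fintype F] (hF : Odd (Fintype.card F)) :
    ∃ s t : ↥(chevF4.group F), orderOf s = 2 ∧ orderOf t = 2 ∧ ¬ IsConj s t ∧
      (∀ v : ↥(chevF4.group F), orderOf v = 2 → IsConj v s ∨ IsConj v t) ∧
      Nat.card (Subgroup.centralizer ({s} : Set ↥(chevF4.group F))) =
        Fintype.card F ^ 16 * (Fintype.card F ^ 2 - 1) * (Fintype.card F ^ 4 - 1) *
          (Fintype.card F ^ 6 - 1) * (Fintype.card F ^ 8 - 1) ∧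
      Nat.card (Subgroup.centralizer ({t} : Set ↥(chevF4.group F))) =
        Fintype.card F ^ 10 * (Fintype.card F ^ 2 - 1) ^ 2 * (Fintype.card F ^ 4 - 1) *
          (Fintype.card F ^ 6 - 1) := by
  have hT : Nat.card (chevF4.diagonalSubgroup F) = (Nat.card F - 1) ^ chevF4.rank := by
    have h := torF4.card_diagonal sysF4 F
    rw [Finset.prod_eq_one (fun i _ => by
      have : torF4.d i = 1 := by
        revert i
        decide +kernel
      rw [this, Nat.gcd_one_right]), one_mul] at h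
    exact h
  have hq : 2 ≤ Fintype.card F := Fintype.one_lt_card
  obtain ⟨s, t, h1, h2, h3, h4, h5, h6⟩ := two_classes.{u} CfsgLib.Chev.DataF4.valid
    (F := F) (Nat.card_eq_fintype_card (α := F) ▸ hF) (two_ne_zero_of_odd hF) DataF4.red_ok
    DataF4.tab_ok (by decide +kernel) weyl_card_F4 DataF4.cls0_ok DataF4.cls1_ok DataF4.two_ok hT (by
      rw [Nat.card_eq_fintype_card]
      simp only [DataF4.cls0, DataF4.cls1, List.map_cons, List.map_nil, List.prod_cons, List.prod_nil,
        mul_one]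
      intro e
      generalize Fintype.card F = q at e hq
      have hp : 0 < q ^ 10 * ((q ^ 2 - 1) * ((q ^ 4 - 1) * (q ^ 6 - 1))) := by
        have h : ∀ k, 0 < k → 0 < q ^ k - 1 := fun k hk => by
          have := Nat.one_lt_pow (Nat.ne_of_gt hk) hq
          omega
        have := h 2 (by norm_num)
        have := h 4 (by norm_num)
        have := h 6 (by norm_num)
        positivity
      have e' : q ^ 10 * ((q ^ 2 - 1) * ((q ^ 4 - 1) * (q ^ 6 - 1))) * (q ^ 6 * (q ^ 8 - 1)) =
          q ^ 10 * ((q ^ 2 - 1) * ((q ^ 4 - 1) * (q ^ 6 - 1))) * (q ^ 2 - 1) := by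
        rw [show (16 : ℕ) = 10 + 6 by norm_num, pow_add] at e
        linarith [e]
      have e'' := Nat.eq_of_mul_eq_mul_left hp e'
      have l1 : 1 ≤ q ^ 6 := Nat.one_le_pow _ _ (by omega)
      have l2 : q ^ 2 < q ^ 8 := Nat.pow_lt_pow_right hq (by norm_num)
      have l3 : q ^ 8 - 1 ≤ q ^ 6 * (q ^ 8 - 1) := Nat.le_mul_of_pos_left _ l1
      have l4 : 1 ≤ q ^ 2 := Nat.one_le_pow _ _ (by omega)
      rw [e''] at l3
      clear e e' e'' hp
      omega)
  refine ⟨s, t, h1, h2, h3, h4, ?_, ?_⟩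
  · rw [h5, Nat.card_eq_fintype_card]
    simp only [DataF4.cls0, List.map_cons, List.map_nil, List.prod_cons, List.prod_nil]
    ring
  · rw [h6, Nat.card_eq_fintype_card]
    simp only [DataF4.cls1, List.map_cons, List.map_nil, List.prod_cons, List.prod_nil]
    ring

end CfsgLib.Chev.OddInvol
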