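import Cfsg.Agent.Chev.OddInvol.Chain
import Cfsg.Agent.Chev.GroupOrder

/-!
# Two classes of involutions and their centraliser orders, from the tables
-/

set_option autoImplicit false

namespace CfsgLib.Chev.OddInvol

open Cfsg.Lie CfsgLib.Chev CfsgLib.Chev.Sys

universe u

/-- The orbit of a representative in the table. -/
noncomputable def orbList (T : Tbl) (tab : List (ℕ × ℕ × ℕ × ℕ)) (ε : ℕ) : List ℕ :=
  (List.range (2 ^ T.l)).filter fun τ => !Nat.beq τ 0 && Nat.beq (repOf tab τ) ε

/-- The data of one class. -/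
structure ClassData where
  ε : ℕ
  A : List (List ℤ)
  levels : List (List (List ℕ × ℕ))
  degs : List ℕ
  N : ℕ

/-- The check of one class. -/
noncomputable def classOK (T : Tbl) (tab : List (ℕ × ℕ × ℕ × ℕ)) (W : ℕ) (K : ClassData) : Bool :=
  chainTableOK T K.ε K.A K.levels &&
  Nat.beq (((List.range T.l).map fun i => (K.levels.getD i []).length).prod *
    (orbList T tab K.ε).length) W &&
  Nat.blt 0 (orbList T tab K.ε).length && Nat.blt 0 K.ε && Nat.blt K.ε (2 ^ T.l) &&
  polyOK T.l (K.levels.map fun lev => lev.map fun e => (([] : List ℤ), e.2)) K.degs &&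
  Nat.beq ((List.range T.n).filter (isPQ T K.ε)).length K.N

/-- Every class of the table is one of the two. -/
noncomputable def twoOK (T : Tbl) (tab : List (ℕ × ℕ × ℕ × ℕ)) (a b : ℕ) : Bool :=
  (List.range (2 ^ T.l)).all fun τ => Nat.beq τ 0 || Nat.beq (repOf tab τ) a || Nat.beq (repOf tab τ) b

variable {D : ChevalleyDatum} {T : Tbl} (hV : T.Valid D) {F : Type u} [Field F]

include hV

/-- In the simply connected case every torus value occurs. -/
theorem dg_mem_diagonal [Finite F]
    (hT : Nat.card (D.diagonalSubgroup F) = (Nat.card F - 1) ^ D.rank) (z : ℕ → Fˣ) :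
    (Tbl.Valid.toSys.{u} hV).dg z ∈ D.diagonalSubgroup F := by
  set S := Tbl.Valid.toSys.{u} hV
  haveI := finite_GL (D := D) (F := F)
  let g : (Fin D.rank → Fˣ) →* GL D.Idx F := S.dgHom.comp
    (MonoidHom.mk' (fun z i => if h : i < D.rank then z ⟨i, h⟩ else 1)
      (fun z z' => by funext i; by_cases h : i < D.rank <;> simp [h]))
  have hle : D.diagonalSubgroup F ≤ g.range := fun x hx => by
    obtain ⟨z', rfl⟩ := S.exists_dg hx
    exact ⟨fun i => z' i, S.dg_congr fun i hi => dif_pos hi⟩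
  have hcard : Nat.card g.range ≤ Nat.card (D.diagonalSubgroup F) := by
    refine (Nat.card_le_card_of_surjective g.rangeRestrict g.rangeRestrict_surjective).trans ?_
    rw [hT, Nat.card_fun, Nat.card_units, Nat.card_eq_fintype_card (α := Fin _), Fintype.card_fin]
  rw [Subgroup.eq_of_le_of_card_ge hle hcard]
  exact ⟨fun i => z i, S.dg_congr fun i hi => dif_pos hi⟩

/-- The order of the centraliser of a class. -/
theorem card_class [Finite F] (h2 : (2 : F) ≠ 0) {tab : List (ℕ × ℕ × ℕ × ℕ)}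
    (htab : orbTableOK T tab = true) {W : ℕ}
    (hW : (Tbl.Valid.toSys.{u} hV).weylSet.card = W) {K : ClassData}
    (hK : classOK T tab W K = true)
    (hT : Nat.card (D.diagonalSubgroup F) = (Nat.card F - 1) ^ D.rank)
    (hmem : (Tbl.Valid.toSys.{u} hV).dg (zb (F := F) K.ε) ∈ D.diagonalSubgroup F) :
    Nat.card (Subgroup.centralizer
      ({⟨_, (Tbl.Valid.toSys.{u} hV).diag_le_group hmem⟩} : Set (D.group F))) =
      Nat.card F ^ K.N * (K.degs.map fun d => Nat.card F ^ d - 1).prod := by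
  classical
  set S := Tbl.Valid.toSys.{u} hV
  have hl : D.rank = T.l := hV.hL.rank
  have hnr : D.nroots = T.n := hV.hL.nroots
  simp only [classOK, Bool.and_eq_true] at hK
  obtain ⟨⟨⟨⟨⟨⟨hchain, hprod⟩, horb⟩, -⟩, -⟩, hpoly⟩, hN⟩ := hK
  have hprod' := Nat.eq_of_beq_eq_true hprod
  have horb' : 0 < (orbList T tab K.ε).length := Nat.le_of_ble_eq_true horb
  have hne := neg_one_ne hV (F := F) h2
  have hchi : ∀ r : ℕ, S.chi (zb (F := F) K.ε) r = 1 ↔ par T K.ε r = false := fun r => by
    rw [chi_zb hV]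
    cases par T K.ε r <;> simp [hne]
  have hsame : ∀ r r' : ℕ, S.chi (zb (F := F) K.ε) r = S.chi (zb (F := F) K.ε) r' ↔
      par T K.ε r = par T K.ε r' := fun r r' =>
    ⟨fun e => par_congr hV h2 e, fun e => by rw [chi_zb hV, chi_zb hV, e]⟩
  have hwF : ∀ w, w ∈ wFix S (zb (F := F) K.ε) ↔
      w ∈ S.weyl ∧ ∀ r : Fin D.nroots, par T K.ε (w r : Fin D.nroots) = par T K.ε r := fun w => by
    unfold wFix
    simp only [Finset.mem_filter, Sys.mem_weylSet, hsame]
  obtain ⟨hfam, hfcard, hfsum⟩ := fam_spec.{u} hV hchain T.l le_rfl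
  -- the orbit bounds the stabiliser
  have horbmem : ∀ τ ∈ (orbList T tab K.ε).toFinset, ∃ g ∈ S.weyl,
      ∀ r : Fin D.nroots, par T τ r = par T K.ε (g r : Fin D.nroots) := fun τ hτ => by
    rw [List.mem_toFinset, orbList, List.mem_filter, Bool.and_eq_true, Bool.not_eq_true'] at hτ
    obtain ⟨-, g, hg, hgp⟩ := exists_rep hV (F := F) h2 htab (Nat.ne_of_beq_eq_false hτ.2.1)
      (List.mem_range.1 hτ.1)
    rw [Nat.eq_of_beq_eq_true hτ.2.2] at hgp
    exact ⟨g, hg, hgp⟩
  choose! g hg hgp using horbmem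
  have hinj : Set.InjOn (fun p : Equiv.Perm (Fin D.nroots) × ℕ => p.1 * g p.2)
      ((wFix S (zb (F := F) K.ε) ×ˢ (orbList T tab K.ε).toFinset : Finset _) : Set _) := by
    rintro ⟨u, τ⟩ hp ⟨u', τ'⟩ hp' (e : u * g τ = u' * g τ')
    rw [Finset.mem_coe, Finset.mem_product] at hp hp'
    have hb : ∀ (u : Equiv.Perm (Fin D.nroots)) (τ : ℕ), u ∈ wFix S (zb (F := F) K.ε) →
        τ ∈ (orbList T tab K.ε).toFinset → ∀ i : Fin D.rank,
        τ.testBit i = par T K.ε ((u * g τ) (S.sr i) : Fin D.nroots) := by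
      intro u τ hu hτ i
      rw [Equiv.Perm.mul_apply, ((hwF u).1 hu).2, ← hgp τ hτ, par, sum_range_list,
        Finset.sum_eq_single (i : ℕ)]
      · have : T.vecAt (S.sr i : Fin D.nroots) i = 1 := by
          have := S.vec_simple i i.2 i i.2
          rwa [if_pos rfl] at this
        rw [this]
        cases τ.testBit i <;> simp
      · intro k hk hki
        have : T.vecAt (S.sr i : Fin D.nroots) k = 0 := by
          have := S.vec_simple i i.2 k (hl ▸ Finset.mem_range.1 hk)
          rwa [if_neg (Ne.symm hki)] at this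
        rw [this]
        cases τ.testBit k <;> simp
      · intro h
        exact absurd (Finset.mem_range.2 (hl ▸ i.2)) h
    have hττ : τ = τ' := by
      refine Nat.eq_of_testBit_eq fun i => ?_
      by_cases hi : i < T.l
      · rw [hb u τ hp.1 hp.2 ⟨i, hl ▸ hi⟩, hb u' τ' hp'.1 hp'.2 ⟨i, hl ▸ hi⟩, e]
      · have hlt : ∀ x ∈ (orbList T tab K.ε).toFinset, x < 2 ^ i := fun x hx => by
          rw [List.mem_toFinset, orbList, List.mem_filter, List.mem_range] at hx
          exact lt_of_lt_of_le hx.1 (Nat.pow_le_pow_right (by norm_num) (not_lt.1 hi))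
        rw [Nat.testBit_lt_two_pow (hlt τ hp.2), Nat.testBit_lt_two_pow (hlt τ' hp'.2)]
    subst hττ
    exact Prod.ext (mul_right_cancel e) rfl
  have hle : (wFix S (zb (F := F) K.ε)).card * (orbList T tab K.ε).length ≤ W := by
    have hnd : (orbList T tab K.ε).Nodup := List.nodup_range.filter _
    rw [← hW, ← List.toFinset_card_of_nodup hnd,
      ← Finset.card_product, ← Finset.card_image_of_injOn hinj]
    refine Finset.card_le_card fun x hx => ?_
    rw [Finset.mem_image] at hx
    obtain ⟨⟨u, τ⟩, hp, rfl⟩ := hx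
    rw [Finset.mem_product] at hp
    exact S.mem_weylSet.2 (mul_mem ((hwF u).1 hp.1).1 (hg τ hp.2))
  have heq : wFix S (zb (F := F) K.ε) = fam.{u} hV K.levels T.l := by
    refine (Finset.eq_of_subset_of_card_le (fun w hw => (hwF w).2
      ⟨(hfam w hw).1, fun r => ((hfam w hw).2 r).1⟩) ?_).symm
    rw [hfcard]
    exact Nat.le_of_mul_le_mul_right (hle.trans_eq hprod'.symm) horb'
  have hlen : ∀ w, subLen S (zb (F := F) K.ε) w = relLen T K.ε w := by
    intro w
    unfold subLen relLen
    refine Finset.card_bij (fun r hr => (⟨r, Finset.mem_range.1 (Finset.mem_filter.1 hr).1⟩ : Fin D.nroots))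
      (fun r hr => ?_) (fun a _ b _ e => congrArg Fin.val e) (fun x hx => ?_)
    · simp only [Finset.mem_filter, Finset.mem_univ, true_and, isPQ, Bool.and_eq_true,
        Bool.not_eq_true'] at hr ⊢
      obtain ⟨hr1, hr2, ⟨hr3, hr4⟩, hr5⟩ := hr
      refine ⟨⟨Nat.ble_eq_true_of_le (hnr ▸ hr2), (hchi r).1 hr5⟩, ?_⟩
      rw [Bool.eq_false_iff]
      intro h
      have h' := Nat.le_of_ble_eq_true h
      have hh : D.nroots / 2 = T.n / 2 := by rw [hnr]
      omega
    · simp only [Finset.mem_filter, Finset.mem_univ, true_and, isPQ, Bool.and_eq_true,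
        Bool.not_eq_true'] at hx
      refine ⟨x, ?_, rfl⟩
      simp only [Finset.mem_filter, Finset.mem_range]
      refine ⟨x.2, (by have := Nat.le_of_ble_eq_true hx.1.1; have hh : D.nroots / 2 = T.n / 2 := (by rw [hnr]); omega), ⟨x.2, ?_⟩, (hchi x).2 hx.1.2⟩
      by_contra hlt
      have hh : D.nroots / 2 = T.n / 2 := by rw [hnr]
      exact (Bool.eq_false_iff.1 hx.2) (Nat.ble_eq_true_of_le (hh ▸ not_lt.1 hlt))
  have hpos : subPos S (zb (F := F) K.ε) = K.N := by
    rw [← Nat.eq_of_beq_eq_true hN, ← List.toFinset_card_of_nodup (List.nodup_range.filter _)]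
    unfold subPos
    congr 1
    ext r
    simp only [List.mem_toFinset, List.mem_filter, List.mem_range, Finset.mem_filter, Finset.mem_range,
      isPQ, Bool.and_eq_true, Bool.not_eq_true', hnr, hchi, Nat.ble_eq]
  rw [card_centralizer S hmem, hpos, hT, heq]
  simp only [hlen]
  have hq : 1 ≤ Nat.card F := Nat.card_pos
  rw [mul_comm ((Nat.card F - 1) ^ D.rank), mul_assoc]
  congr 1
  apply Nat.cast_injective (R := ℤ)
  have hcast : ∀ l : List ℕ, (((l.map fun d => Nat.card F ^ d - 1).prod : ℕ) : ℤ) =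
      (l.map fun d => (Nat.card F : ℤ) ^ d - 1).prod := by
    intro l
    induction l with
    | nil => simp
    | cons a l ih =>
      rw [List.map_cons, List.map_cons, List.prod_cons, List.prod_cons, Nat.cast_mul, ih,
        Nat.cast_sub (Nat.one_le_pow _ _ hq)]
      simp
  rw [hcast, ← polyOK_sound hpoly (Nat.card F : ℤ)]
  push_cast [Nat.cast_sub hq]
  rw [hl, hfsum (Nat.card F : ℤ)]
  congr 1
  rw [List.map_map]
  have hlevlen : K.levels.length = T.l := by
    simp only [chainTableOK, Bool.and_eq_true] at hchain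
    exact Nat.eq_of_beq_eq_true hchain.1.2
  congr 1
  refine List.ext_getElem (by simp [hlevlen]) fun i h1 h2 => ?_
  simp only [List.getElem_map, Function.comp_apply, List.getElem_range, List.map_map]
  rw [List.getD_eq_getElem _ _ (by simpa using h2)]
  rfl

/-- The two classes. -/
theorem two_classes [Finite F] (hodd : Odd (Nat.card F)) (h2 : (2 : F) ≠ 0)
    {wl : List (List ℕ × Wit)} (hred : redOK T wl = true)
    {tab : List (ℕ × ℕ × ℕ × ℕ)} (htab : orbTableOK T tab = true) (hN0 : 0 < D.nroots / 2) {W : ℕ}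
    (hW : (Tbl.Valid.toSys.{u} hV).weylSet.card = W) {K K' : ClassData}
    (hK : classOK T tab W K = true) (hK' : classOK T tab W K' = true)
    (htwo : twoOK T tab K.ε K'.ε = true)
    (hT : Nat.card (D.diagonalSubgroup F) = (Nat.card F - 1) ^ D.rank)
    (hdiff : Nat.card F ^ K.N * (K.degs.map fun d => Nat.card F ^ d - 1).prod ≠
      Nat.card F ^ K'.N * (K'.degs.map fun d => Nat.card F ^ d - 1).prod) :
    ∃ s t : ↥(D.group F), orderOf s = 2 ∧ orderOf t = 2 ∧ ¬ IsConj s t ∧
      (∀ u : ↥(D.group F), orderOf u = 2 → IsConj u s ∨ IsConj u t) ∧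
      Nat.card (Subgroup.centralizer ({s} : Set ↥(D.group F))) =
        Nat.card F ^ K.N * (K.degs.map fun d => Nat.card F ^ d - 1).prod ∧
      Nat.card (Subgroup.centralizer ({t} : Set ↥(D.group F))) =
        Nat.card F ^ K'.N * (K'.degs.map fun d => Nat.card F ^ d - 1).prod := by
  set S := Tbl.Valid.toSys.{u} hV
  haveI := finite_GL (D := D) (F := F)
  have hm : ∀ ε : ℕ, S.dg (zb (F := F) ε) ∈ D.diagonalSubgroup F := fun ε => dg_mem_diagonal hV hT _
  let el : ℕ → D.group F := fun ε => ⟨_, S.diag_le_group (hm ε)⟩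
  have hc := card_class hV h2 htab hW hK hT (hm _)
  have hc' := card_class hV h2 htab hW hK' hT (hm _)
  have hord : ∀ L : ClassData, classOK T tab W L = true → orderOf (el L.ε) = 2 := by
    intro L hL
    simp only [classOK, Bool.and_eq_true] at hL
    refine orderOf_eq_prime ?_ ?_
    · refine Subtype.ext ?_
      rw [pow_two]
      show S.dg (zb (F := F) L.ε) * S.dg (zb L.ε) = 1
      rw [← S.dg_mul]
      refine (S.dg_congr fun i _ => ?_).trans (map_one S.dgHom)
      simp [zb]
      split_ifs <;> simp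
    · intro e
      have e' : S.dg (zb (F := F) L.ε) = S.dg 1 := (congrArg Subtype.val e).trans (map_one S.dgHom).symm
      have h0 : 0 < L.ε := Nat.le_of_ble_eq_true hL.1.1.1.2
      have hlt : L.ε < 2 ^ T.l := Nat.le_of_ble_eq_true hL.1.1.2
      obtain ⟨i, hi⟩ := Nat.exists_testBit_of_ne_zero (Nat.ne_of_gt h0)
      have hil : i < T.l := by
        by_contra hil
        rw [Nat.testBit_lt_two_pow (lt_of_lt_of_le hlt (Nat.pow_le_pow_right (by norm_num) (not_lt.1 hil)))] at hi
        exact absurd hi (by simp)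
      have h := S.dg_inj e' (i := i) (by rw [hV.hL.rank]; exact hil)
      simp [zb, hi] at h
      exact neg_one_ne hV h2 h
  refine ⟨el K.ε, el K'.ε, hord K hK, hord K' hK', fun hconj => hdiff ?_, fun v hv => ?_, hc, hc'⟩
  · rw [← hc, ← hc']
    obtain ⟨x, hx⟩ := isConj_iff.1 hconj
    refine Nat.card_congr ((MulAut.conj x).toEquiv.subtypeEquiv fun a => ?_)
    rw [Subgroup.mem_centralizer_singleton_iff, Subgroup.mem_centralizer_singleton_iff]
    show a * el K.ε = el K.ε * a ↔ x * a * x⁻¹ * el K'.ε = el K'.ε * (x * a * x⁻¹)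
    rw [← hx, show x * a * x⁻¹ * (x * el K.ε * x⁻¹) = x * (a * el K.ε) * x⁻¹ by group,
      show x * el K.ε * x⁻¹ * (x * a * x⁻¹) = x * (el K.ε * a) * x⁻¹ by group, mul_left_inj, mul_right_inj]
  · have hv2 : (v : GL D.Idx F) * v = 1 := by
      have := pow_orderOf_eq_one v
      rw [hv, pow_two] at this
      exact congrArg Subtype.val this
    have hv1 : (v : GL D.Idx F) ≠ 1 := fun e => by
      rw [show v = 1 from Subtype.ext e, orderOf_one] at hv
      exact absurd hv (by norm_num)
    obtain ⟨t, ht, hgc⟩ := exists_gc_diag hV hodd h2 hred hN0 v.2 hv2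
    obtain ⟨τ, hτ, hτ0, hgc'⟩ := exists_gc_rep hV h2 htab ht (gc_sq hgc hv2) (gc_ne hgc hv1)
    obtain ⟨x, hx, e⟩ := gc_trans hgc hgc'
    have h := List.all_eq_true.1 htwo τ (List.mem_range.2 hτ)
    simp only [Bool.or_eq_true] at h
    rcases h with (h | h) | h
    · exact absurd (Nat.eq_of_beq_eq_true h) hτ0
    · refine Or.inl (isConj_iff.2 ⟨⟨x, hx⟩, Subtype.ext ?_⟩)
      rw [Nat.eq_of_beq_eq_true h] at e
      exact e
    · refine Or.inr (isConj_iff.2 ⟨⟨x, hx⟩, Subtype.ext ?_⟩)
      rw [Nat.eq_of_beq_eq_true h] at e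
      exact e

end CfsgLib.Chev.OddInvol
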