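import Cfsg.Agent.Chev.Bruhat
import Cfsg.Agent.Chev.SL2Hom
import Cfsg.Agent.Chev.G2Odd.Involution

/-!
# Involutions over fields of odd order: the monomial form and the two moves

An involution is conjugate to a monomial involution.  A monomial involution negating a root `β`
with coefficient `c` may be multiplied by a reflection when `c` is a square, and by `h_β(-1)` always.
-/

set_option autoImplicit false

namespace CfsgLib.Chev.OddInvol

open Cfsg.Lie CfsgLib.Chev Matrix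

universe u

variable {D : ChevalleyDatum} (S : Sys.{u} D) {F : Type u} [Field F]

/-- Conjugacy inside the group of the datum. -/
def GC (D : ChevalleyDatum) {F : Type u} [Field F] (x y : GL D.Idx F) : Prop :=
  ∃ h ∈ D.group F, h * x * h⁻¹ = y

theorem gc_refl (x : GL D.Idx F) : GC D x x := ⟨1, one_mem _, by simp⟩

theorem gc_trans {x y z : GL D.Idx F} (h₁ : GC D x y) (h₂ : GC D y z) : GC D x z := by
  obtain ⟨g, hg, rfl⟩ := h₁
  obtain ⟨h, hh, rfl⟩ := h₂
  exact ⟨h * g, mul_mem hh hg, by group⟩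

theorem gc_sq {x y : GL D.Idx F} (h : GC D x y) (hx : x * x = 1) : y * y = 1 := by
  obtain ⟨g, -, rfl⟩ := h
  rw [show g * x * g⁻¹ * (g * x * g⁻¹) = g * (x * x) * g⁻¹ by group, hx]
  group

theorem gc_ne {x y : GL D.Idx F} (h : GC D x y) (hx : x ≠ 1) : y ≠ 1 := by
  obtain ⟨g, -, rfl⟩ := h
  intro e
  exact hx (by
    rw [show x = g⁻¹ * (g * x * g⁻¹) * g by group, e]
    group)

/-- Conjugation by `!![0, 1; c, 0]`. -/
def theta (c : Fˣ) : SpecialLinearGroup (Fin 2) F →* SpecialLinearGroup (Fin 2) F where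
  toFun g := ⟨!![g.1 1 1, g.1 1 0 * (c⁻¹ : Fˣ); (c : F) * g.1 0 1, g.1 0 0], by
    have hd := g.2
    rw [Matrix.det_fin_two] at hd
    rw [Matrix.det_fin_two_of]
    calc g.1 1 1 * g.1 0 0 - g.1 1 0 * (c⁻¹ : Fˣ) * ((c : F) * g.1 0 1)
        = g.1 0 0 * g.1 1 1 - g.1 0 1 * g.1 1 0 * ((c⁻¹ : Fˣ) * (c : F)) := by ring
      _ = 1 := by rw [← Units.val_mul, inv_mul_cancel, Units.val_one, mul_one, hd]⟩
  map_one' := Subtype.ext (by ext i j; fin_cases i <;> fin_cases j <;> simp)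
  map_mul' g h := Subtype.ext (by
    show !![(g.1 * h.1) 1 1, (g.1 * h.1) 1 0 * (c⁻¹ : Fˣ); (c : F) * (g.1 * h.1) 0 1, (g.1 * h.1) 0 0] =
      !![g.1 1 1, g.1 1 0 * (c⁻¹ : Fˣ); (c : F) * g.1 0 1, g.1 0 0] *
      !![h.1 1 1, h.1 1 0 * (c⁻¹ : Fˣ); (c : F) * h.1 0 1, h.1 0 0]
    rw [Matrix.mul_fin_two]
    have hc : ((c⁻¹ : Fˣ) : F) * (c : F) = 1 := by rw [← Units.val_mul, inv_mul_cancel, Units.val_one]
    simp only [Matrix.mul_apply, Fin.sum_univ_two]
    ext i j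
    fin_cases i <;> fin_cases j <;> simp <;> field_simp <;> ring)

theorem coe_theta (c : Fˣ) (g : SpecialLinearGroup (Fin 2) F) :
    ((theta c g : SpecialLinearGroup (Fin 2) F) : Matrix (Fin 2) (Fin 2) F) =
      !![g.1 1 1, g.1 1 0 * (c⁻¹ : Fˣ); (c : F) * g.1 0 1, g.1 0 0] := rfl

include S

/-! ### The monomial form -/

theorem exists_pow_split {u d : GL D.Idx F} (hu : u ∈ D.posUnipotent F)
    (hd : d ∈ D.diagonalSubgroup F) (k : ℕ) :
    ∃ x ∈ D.posUnipotent F, (u * d) ^ k = x * d ^ k := by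
  induction k with
  | zero => exact ⟨1, one_mem _, by simp⟩
  | succ k ih =>
    obtain ⟨x, hx, e⟩ := ih
    refine ⟨x * (d ^ k * u * (d ^ k)⁻¹), mul_mem hx (S.diag_conj_pos (pow_mem hd k) hu), ?_⟩
    rw [pow_succ (u * d), e, pow_succ d]
    group

theorem diag_pow_eq_one [Finite F] {d : GL D.Idx F} (hd : d ∈ D.diagonalSubgroup F) :
    d ^ (Nat.card F - 1) = 1 := by
  obtain ⟨z, rfl⟩ := S.exists_dg hd
  have h : z ^ (Nat.card F - 1) = 1 := by
    funext i
    rw [Pi.pow_apply, Pi.one_apply, ← Nat.card_units F, pow_card_eq_one']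
  show S.dgHom z ^ (Nat.card F - 1) = 1
  rw [← map_pow, h, map_one]

/-- An element of `B` of order dividing `|U|` has trivial torus part. -/
theorem torus_part_eq_one [Finite F] {x u d : GL D.Idx F} (hu : u ∈ D.posUnipotent F)
    (hd : d ∈ D.diagonalSubgroup F) (e : x = u * d) (hN : 0 < D.nroots / 2)
    (hx : x ^ Nat.card (D.posUnipotent F) = 1) : d = 1 := by
  obtain ⟨y, hy, e'⟩ := exists_pow_split S hu hd (Nat.card (D.posUnipotent F))
  rw [← e, hx] at e'
  have h1 : d ^ Nat.card (D.posUnipotent F) ∈ D.posUnipotent F ⊓ D.diagonalSubgroup F := by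
    refine Subgroup.mem_inf.2 ⟨?_, pow_mem hd _⟩
    rw [show d ^ Nat.card (D.posUnipotent F) = y⁻¹ from eq_inv_of_mul_eq_one_right e'.symm]
    exact inv_mem hy
  rw [S.pos_inf_diag, Subgroup.mem_bot] at h1
  have h2 := diag_pow_eq_one S hd
  have hcop : Nat.Coprime (Nat.card (D.posUnipotent F)) (Nat.card F - 1) := by
    rw [S.card_pos]
    refine Nat.Coprime.pow_left _ ?_
    have h1' : 1 < Nat.card F := Finite.one_lt_card
    have hsucc : Nat.card F = (Nat.card F - 1) + 1 := by omega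
    conv_lhs => rw [hsucc]
    exact Nat.coprime_self_add_left.2 (Nat.coprime_one_left _) |>.symm.symm
  have := pow_gcd_eq_one.2 ⟨h1, h2⟩
  rwa [Nat.Coprime.gcd_eq_one hcop, pow_one] at this

/-- Every involution is conjugate to a monomial one. -/
theorem exists_gc_monomial [Finite F] (hodd : Odd (Nat.card F)) (hN : 0 < D.nroots / 2)
    {g : GL D.Idx F} (hg : g ∈ D.group F) (hg2 : g * g = 1) :
    ∃ n ∈ D.monomialSubgroup F, n * n = 1 ∧ GC D g n := by
  obtain ⟨b, hb, n₀, hn₀, w, -, hw, v, hv, rfl⟩ := S.exists_normal_form hg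
  have hvp : v ∈ D.posUnipotent F := S.genBy_le_pos _ hv
  have hvg : v ∈ D.group F := S.pos_le_group hvp
  obtain ⟨u, hu, d, hd, eu⟩ := S.mem_borel_iff.1 (mul_mem (Subgroup.mem_sup_left hvp) hb :
    v * b ∈ D.borelSubgroup F)
  set n := d * n₀ with hn
  have hnm : n ∈ D.monomialSubgroup F := mul_mem (S.diag_le_mono hd) hn₀
  have hgc : GC D (b * n₀ * v) (u * n) := ⟨v, hvg, by
    rw [hn, ← mul_assoc u d n₀, ← eu]; group⟩
  have h2 : u * n * (u * n) = 1 := gc_sq hgc hg2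
  have hu' : u ∈ D.borelSubgroup F := Subgroup.mem_sup_left hu
  have hinv : u * n * 1 = 1 * n⁻¹ * u⁻¹ := by
    rw [mul_one, one_mul, ← _root_.mul_inv_rev]
    exact eq_inv_of_mul_eq_one_left h2
  have hd2 := S.cell_unique hnm (inv_mem hnm) hu' (one_mem _) (one_mem _) (inv_mem hu') hinv
  rw [← _root_.mul_inv_rev] at hd2
  have hd3 : n * n ∈ D.diagonalSubgroup F := by simpa using inv_mem hd2
  -- `n u n⁻¹ = u⁻¹ (n n)⁻¹`
  have e1 : n * u * n⁻¹ = u⁻¹ * (n * n)⁻¹ := by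
    have : n * u * n = u⁻¹ := eq_inv_of_mul_eq_one_right (by rw [← h2]; group)
    rw [← this]
    group
  have hM : (n * u * n⁻¹) ^ Nat.card (D.posUnipotent F) = 1 := by
    rw [conj_pow]
    have : u ^ Nat.card (D.posUnipotent F) = 1 :=
      congrArg Subtype.val (pow_card_eq_one' (x := (⟨u, hu⟩ : D.posUnipotent F)))
    rw [this]
    group
  have hnn : n * n = 1 :=
    inv_eq_one.1 (torus_part_eq_one S (inv_mem hu) (inv_mem hd3) e1 hN hM)
  rw [hnn, inv_one, mul_one] at e1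
  -- the square root of `u`
  have hMo : Odd (Nat.card (D.posUnipotent F)) := by rw [S.card_pos]; exact hodd.pow
  obtain ⟨k, hk⟩ := hMo
  have huM : u ^ (2 * k + 1) = 1 := by
    rw [← hk]
    exact congrArg Subtype.val (pow_card_eq_one' (x := (⟨u, hu⟩ : D.posUnipotent F)))
  set v₀ := u ^ (k + 1) with hv₀
  have hvv : v₀ * v₀ = u := by
    rw [hv₀, ← pow_add, show k + 1 + (k + 1) = 2 * k + 1 + 1 by omega, pow_succ, huM, one_mul]
  have hcv : n * v₀ * n⁻¹ = v₀⁻¹ := by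
    rw [hv₀, ← conj_pow, e1, inv_pow]
  refine ⟨n, hnm, hnn, gc_trans hgc ⟨v₀⁻¹, inv_mem (pow_mem (S.pos_le_group hu) _), ?_⟩⟩
  rw [inv_inv, ← hvv]
  have hs : n * v₀ = v₀⁻¹ * n := mul_inv_eq_iff_eq_mul.1 hcv
  calc v₀⁻¹ * (v₀ * v₀ * n) * v₀ = v₀ * (n * v₀) := by group
    _ = n := by rw [hs]; group

/-! ### The action with coefficients -/

/-- The opposite root. -/
def negR (r : Fin D.nroots) : Fin D.nroots := ⟨D.neg r, S.neg_lt r.2⟩

theorem negR_negR (r : Fin D.nroots) : negR S (negR S r) = r := Fin.ext (S.neg_neg r.2)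

theorem negR_ne (r : Fin D.nroots) : negR S r ≠ r := fun e => S.neg_ne r.2 (congrArg Fin.val e)

/-- `n` permutes the root subgroups by `w`, with coefficients `c`. -/
structure GActs (n : GL D.Idx F) (w : Equiv.Perm (Fin D.nroots)) (c : Fin D.nroots → Fˣ) : Prop where
  conj : ∀ (r : Fin D.nroots) (t : F), n * S.xU r t * n⁻¹ = S.xU (w r : Fin D.nroots) ((c r : F) * t)
  opp : ∀ r, c r * c (negR S r) = 1
  comm_neg : ∀ r, w (negR S r) = negR S (w r)

variable {n n' : GL D.Idx F} {w w' : Equiv.Perm (Fin D.nroots)} {c c' : Fin D.nroots → Fˣ}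

theorem gacts_acts (h : GActs S n w c) : S.Acts n w := fun r => ⟨c r, h.conj r⟩

theorem gacts_mul (h : GActs S n w c) (h' : GActs S n' w' c') :
    GActs S (n * n') (w * w') (fun r => c (w' r) * c' r) where
  conj r t := by
    rw [show n * n' * S.xU r t * (n * n')⁻¹ = n * (n' * S.xU r t * n'⁻¹) * n⁻¹ by group,
      h'.conj, h.conj, Units.val_mul, mul_assoc]
    rfl
  opp r := by
    rw [h'.comm_neg, mul_mul_mul_comm, h.opp, h'.opp, one_mul]
  comm_neg r := by
    rw [Equiv.Perm.mul_apply, Equiv.Perm.mul_apply, h'.comm_neg, h.comm_neg]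

theorem gacts_dg (z : ℕ → Fˣ) : GActs S (S.dg z) 1 (fun r => S.chi z r) where
  conj r t := by rw [S.dg_conj_xU z r.2]; rfl
  opp r := by
    show S.chi z r * S.chi z (D.neg r) = 1
    rw [S.chi_neg z r.2, mul_inv_cancel]
  comm_neg _ := rfl

/-- The sign of the conjugation by a fundamental `n_q`. -/
def etaU (q : ℕ) (r : Fin D.nroots) : Fˣ := if S.eta q r = 1 then 1 else -1

theorem coe_etaU {q : ℕ} (hq : q < D.rank) (r : Fin D.nroots) :
    ((etaU S q r : Fˣ) : F) = (S.eta q r : F) := by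
  rcases S.eta_unit q hq r r.2 with e | e <;> simp [etaU, e]

theorem etaU_cases (q : ℕ) (r : Fin D.nroots) : (etaU S q r : Fˣ) = 1 ∨ (etaU S q r : Fˣ) = -1 := by
  unfold etaU
  split_ifs <;> simp

theorem gacts_nU {q : ℕ} (hq : q < D.rank) :
    GActs S (S.nU (D.simple q) (1 : F)) (S.refl q) (etaU S q) where
  conj r t := by rw [S.refl_apply hq, S.nU_conj_xU hq r.2, coe_etaU S hq]
  opp r := by
    have : (etaU S q (negR S r) : Fˣ) = etaU S q r := by
      show (if S.eta q (D.neg r) = 1 then _ else _) = _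
      rw [S.eta_neg q hq r r.2]
      rfl
    rw [this]
    rcases etaU_cases S (F := F) q r with e | e <;> simp [e]
  comm_neg r := Fin.ext (by
    rw [S.refl_apply hq]
    show S.pi q (D.neg r) = D.neg (S.refl q r : Fin D.nroots)
    rw [S.refl_apply hq, S.pi_neg q hq r r.2])

theorem gacts_one : GActs S (1 : GL D.Idx F) 1 (fun _ => 1) where
  conj r t := by simp
  opp r := by simp
  comm_neg _ := rfl

theorem exists_gacts_nw {L : List ℕ} (hL : ∀ q ∈ L, q < D.rank) :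
    ∃ c, GActs S (S.nw F L) (S.wprod L) c := by
  induction L with
  | nil => exact ⟨fun _ => 1, by rw [Sys.nw_nil, S.wprod_nil]; exact gacts_one S⟩
  | cons q L ih =>
    obtain ⟨c, hc⟩ := ih fun x hx => hL x (List.mem_cons_of_mem _ hx)
    rw [S.nw_cons, S.wprod_cons]
    exact ⟨_, gacts_mul S (gacts_nU S (hL q (List.mem_cons_self ..))) hc⟩

theorem exists_gacts (hn : n ∈ D.monomialSubgroup F) :
    ∃ w ∈ S.weyl, ∃ c, GActs S n w c := by
  obtain ⟨L, hL, h, hh, rfl⟩ := S.mem_mono_iff.1 hn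
  obtain ⟨z, rfl⟩ := S.exists_dg hh
  obtain ⟨c, hc⟩ := exists_gacts_nw S (F := F) hL
  exact ⟨S.wprod L, S.wprod_mem_weyl L, _, by simpa using gacts_mul S (gacts_dg S z) hc⟩

theorem gacts_unique (h : GActs S n w c) (h' : GActs S n w' c') : w = w' ∧ c = c' := by
  have e := S.acts_unique (gacts_acts S h) (gacts_acts S h')
  subst e
  refine ⟨rfl, funext fun r => Units.ext ?_⟩
  have := (h.conj r 1).symm.trans (h'.conj r 1)
  rw [mul_one, mul_one] at this
  exact S.coef_eq (Fin.is_lt _) this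

theorem gacts_involution (h : GActs S n w c) (hn : n * n = 1) :
    w * w = 1 ∧ ∀ r, c (w r) * c r = 1 := by
  have h' := gacts_mul S h h
  rw [hn] at h'
  obtain ⟨e1, e2⟩ := gacts_unique S h' (gacts_one S)
  exact ⟨e1, fun r => congrFun e2 r⟩

theorem perm_fix_negR (h : GActs S n w c) {r : Fin D.nroots} (hr : w r = negR S r) :
    w (negR S r) = r := by rw [h.comm_neg, hr, negR_negR]

/-- The coefficient of a sum of two roots. -/
theorem coef_sum (h : GActs S n w c) {r s k : Fin D.nroots} {M M' : ℤ} (h1 : s ≠ r)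
    (h2 : s ≠ negR S r) (e : D.commTerms r s = [((k : ℕ), M, 1, 1)])
    (e' : D.commTerms (w r : Fin D.nroots) (w s : Fin D.nroots) = [(((w k : Fin D.nroots) : ℕ), M', 1, 1)]) :
    (c k : F) * M = M' * c r * c s := by
  have a1 := S.comm_wU r.2 s.2 (fun e => h1 (Fin.ext e)) (fun e => h2 (Fin.ext e)) (1 : F) 1
  have a2 := S.comm_wU (w r).2 (w s).2 (fun e => h1 (w.injective (Fin.ext e)))
    (fun e => h2 (w.injective ((Fin.ext e).trans (h.comm_neg r).symm))) ((c r : F)) (c s)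
  rw [ChevalleyDatum.commWord, e] at a1
  rw [ChevalleyDatum.commWord, e'] at a2
  simp only [List.map_cons, List.map_nil, pow_one, mul_one, Sys.wU, List.prod_cons, List.prod_nil]
    at a1 a2
  have b := congrArg (fun x => n * x * n⁻¹) a1
  rw [show n * (S.xU s 1 * S.xU r (1 : F)) * n⁻¹ = (n * S.xU s 1 * n⁻¹) * (n * S.xU r 1 * n⁻¹) by
    group, show n * (S.xU r 1 * S.xU s 1 * S.xU k ((M : F) * -1)) * n⁻¹ = (n * S.xU r 1 * n⁻¹) *
      (n * S.xU s 1 * n⁻¹) * (n * S.xU k ((M : F) * -1) * n⁻¹) by group, h.conj, h.conj, h.conj,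
    mul_one, mul_one, a2] at b
  have := S.coef_eq (w k).2 (mul_left_cancel b)
  linear_combination this

/-! ### Conjugation of a rank one subgroup -/

/-- The root homomorphism on the transvections, and the effect of `n`. -/
theorem exists_root_hom (h : GActs S n w c) {r : Fin D.nroots} (hr : w r = negR S r) :
    ∃ φ : SpecialLinearGroup (Fin 2) F →* GL D.Idx F,
      (∀ t, φ (G2Odd.up t) = S.xU r t) ∧ (∀ t, φ (G2Odd.lo t) = S.xU (D.neg r) t) ∧
      (∀ g, φ g ∈ D.group F) ∧ ∀ g, n * φ g * n⁻¹ = φ (theta (c r) g) := by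
  obtain ⟨φ, -, hφ⟩ := S.exists_sl2_hom (F := F) r.2
  have hu : ∀ t, φ (G2Odd.up t) = S.xU r t := fun t => S.eq_xU ((hφ _ t).1 rfl)
  have hl : ∀ t, φ (G2Odd.lo t) = S.xU (D.neg r) t := fun t => S.eq_xU ((hφ _ t).2 rfl)
  refine ⟨φ, hu, hl, fun g => ?_, fun g => ?_⟩
  · have : g ∈ (D.group F).comap φ := by
      have h1 : g ∈ (⊤ : Subgroup (SpecialLinearGroup (Fin 2) F)) := trivial
      rw [← G2Odd.sl2_closure] at h1
      refine Subgroup.closure_le _ |>.2 ?_ h1
      rintro _ (⟨t, rfl⟩ | ⟨t, rfl⟩)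
      · show φ _ ∈ D.group F
        rw [hu]; exact S.xU_mem_group _ _
      · show φ _ ∈ D.group F
        rw [hl]; exact S.xU_mem_group _ _
    exact this
  · refine DFunLike.congr_fun (G2Odd.sl2_ext
      (f := (MulAut.conj n).toMonoidHom.comp φ) (g := φ.comp (theta (c r))) (fun t => ?_)
      (fun t => ?_)) g
    · show n * φ (G2Odd.up t) * n⁻¹ = φ (theta (c r) (G2Odd.up t))
      rw [hu, h.conj, hr, show theta (c r) (G2Odd.up t) = G2Odd.lo ((c r : F) * t) from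
        Subtype.ext (by rw [coe_theta]; ext i j; fin_cases i <;> fin_cases j <;> simp [G2Odd.up, G2Odd.lo]), hl]
      rfl
    · show n * φ (G2Odd.lo t) * n⁻¹ = φ (theta (c r) (G2Odd.lo t))
      have := h.conj (negR S r) t
      rw [perm_fix_negR S h hr] at this
      rw [hl, show S.xU (D.neg r) t = S.xU (negR S r : Fin D.nroots) t from rfl, this,
        show theta (c r) (G2Odd.lo t) = G2Odd.up (((c r)⁻¹ : Fˣ) * t) from
        Subtype.ext (by rw [coe_theta]; ext i j; fin_cases i <;> fin_cases j <;> simp [G2Odd.up, G2Odd.lo, mul_comm]), hu,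
        eq_inv_of_mul_eq_one_right (h.opp r)]

theorem conj_formula (hn : n * n = 1) {φ : SpecialLinearGroup (Fin 2) F →* GL D.Idx F} {d : Fˣ}
    (hθ : ∀ g, n * φ g * n⁻¹ = φ (theta d g)) (K N : SpecialLinearGroup (Fin 2) F)
    (e : theta d K * N = K) : (φ K)⁻¹ * n * φ K = n * φ N := by
  have hi : n⁻¹ = n := inv_eq_of_mul_eq_one_right hn
  have h1 := hθ K⁻¹
  rw [hi, map_inv] at h1
  have e' : theta d K⁻¹ * K = N := by rw [map_inv, inv_mul_eq_iff_eq_mul, e]
  rw [← e', map_mul, ← h1]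
  calc (φ K)⁻¹ * n * φ K = n * n * (φ K)⁻¹ * n * φ K := by rw [hn, one_mul]
    _ = _ := by group

/-- The square move. -/
theorem move_reflect [Finite F] (h2 : (2 : F) ≠ 0) (hn : n * n = 1) (hnm : n ∈ D.monomialSubgroup F)
    (h : GActs S n w c) {q : Fin D.rank} (hq : w (S.sr q) = negR S (S.sr q))
    (hsq : IsSquare (c (S.sr q))) :
    ∃ n₁ ∈ D.monomialSubgroup F, GC D n n₁ ∧ S.Acts n₁ (w * S.refl q) := by
  obtain ⟨φ, hu, hl, hmem, hθ⟩ := exists_root_hom S h hq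
  obtain ⟨d, hd⟩ := hsq
  have hd0 : (d : F) ≠ 0 := Units.ne_zero d
  have hc : (c (S.sr q) : F) = d * d := by rw [hd, Units.val_mul]
  set K : SpecialLinearGroup (Fin 2) F := ⟨!![1, -(2 * (d : F))⁻¹; (d : F), 2⁻¹], by
    rw [Matrix.det_fin_two_of]; field_simp; ring⟩ with hK
  set N : SpecialLinearGroup (Fin 2) F := G2Odd.up (-(d : F)⁻¹) * G2Odd.lo (d : F) * G2Odd.up (-(d : F)⁻¹)
  have e : theta (c (S.sr q)) K * N = K := by
    refine Subtype.ext ?_
    show !![(2 : F)⁻¹, (d : F) * ((c (S.sr q))⁻¹ : Fˣ); (c (S.sr q) : F) * -(2 * (d : F))⁻¹, 1] *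
      (!![1, -(d : F)⁻¹; 0, 1] * !![1, 0; (d : F), 1] * !![1, -(d : F)⁻¹; 0, 1]) = !![1, -(2 * (d : F))⁻¹; (d : F), 2⁻¹]
    rw [Units.val_inv_eq_inv_val, hc]
    simp only [Matrix.mul_fin_two]
    ext i j
    fin_cases i <;> fin_cases j <;> simp <;> field_simp <;> ring
  have hN : φ N = S.nU (D.simple q) (-(d : F)⁻¹) := by
    rw [map_mul, map_mul, hu, hl, S.nU_eq, inv_neg, neg_neg, inv_inv]
    rfl
  have hval : -(d : F)⁻¹ = (((-d⁻¹ : Fˣ)) : F) := by simp
  rw [hval, S.nU_simple q.2] at hN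
  refine ⟨(φ K)⁻¹ * n * φ K, ?_, ⟨(φ K)⁻¹, inv_mem (hmem K), by group⟩, ?_⟩ <;>
    rw [conj_formula S hn hθ K N e, hN]
  · exact mul_mem hnm (mul_mem (S.diag_le_mono (S.dg_mem_diag (S.simple_lt q.2) _))
      (S.nU_mem_mono (S.simple_lt q.2) (1 : Fˣ)))
  · have := gacts_acts S (gacts_mul S h (gacts_mul S (gacts_dg S (hz D (D.simple q) (-d⁻¹)))
      (gacts_nU S q.2)))
    rwa [one_mul] at this

/-- The flip by `h_β(-1)`. -/
theorem move_flip [Finite F] (h2 : (2 : F) ≠ 0) (hn : n * n = 1) (hnm : n ∈ D.monomialSubgroup F)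
    (h : GActs S n w c) {r : Fin D.nroots} (hr : w r = negR S r) :
    ∃ n₁ ∈ D.monomialSubgroup F, GC D n n₁ ∧
      GActs S n₁ w (fun s => c s * S.chi (hz D r (-1 : Fˣ)) s) := by
  obtain ⟨φ, hu, hl, hmem, hθ⟩ := exists_root_hom S h hr
  obtain ⟨a, b, hab⟩ := G2Odd.exists_norm h2 (Units.ne_zero (c r)) (-1 : F)
  set K : SpecialLinearGroup (Fin 2) F := ⟨!![a, b; -((c r : F) * b), -a], by
    rw [Matrix.det_fin_two_of]; linear_combination -hab⟩ with hK
  set N : SpecialLinearGroup (Fin 2) F := (G2Odd.up (-1 : F) * G2Odd.lo 1 * G2Odd.up (-1)) *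
    (G2Odd.up (-1 : F) * G2Odd.lo 1 * G2Odd.up (-1))
  have e : theta (c r) K * N = K := by
    refine Subtype.ext ?_
    show !![-a, -((c r : F) * b) * ((c r)⁻¹ : Fˣ); (c r : F) * b, a] *
      ((!![1, -1; 0, 1] * !![1, 0; 1, 1] * !![1, -1; 0, 1]) *
      (!![1, -1; 0, 1] * !![1, 0; 1, 1] * !![1, -1; 0, 1])) = !![a, b; -((c r : F) * b), -a]
    simp only [Matrix.mul_fin_two]
    ext i j
    fin_cases i <;> fin_cases j <;> simp <;> field_simp
  have hN : φ N = S.dg (hz D r (-1 : Fˣ)) := by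
    rw [← S.hU_eq_dg r.2, S.hU_eq, map_mul, map_mul, map_mul, hu, hl, Units.val_neg, Units.val_one, S.nU_eq]
    simp
  refine ⟨(φ K)⁻¹ * n * φ K, ?_, ⟨(φ K)⁻¹, inv_mem (hmem K), by group⟩, ?_⟩ <;>
    rw [conj_formula S hn hθ K N e, hN]
  · exact mul_mem hnm (S.diag_le_mono (S.dg_mem_diag r.2 _))
  · simpa using gacts_mul S h (gacts_dg S (hz D r (-1 : Fˣ)))

/-- Conjugation by a fundamental `n_q`. -/
theorem move_conj {q : ℕ} (hq : q < D.rank) (hnm : n ∈ D.monomialSubgroup F) (h : GActs S n w c) :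
    ∃ n₁ ∈ D.monomialSubgroup F, GC D n n₁ ∧ ∃ c₁, GActs S n₁ (S.refl q * w * S.refl q) c₁ ∧
      ∀ r, c₁ r = c (S.refl q r) ∨ c₁ r = -c (S.refl q r) := by
  set N := S.nU (D.simple q) (1 : F)
  have hN : N ∈ D.monomialSubgroup F := S.nU_mem_mono (S.simple_lt hq) (1 : Fˣ)
  have hNi : N⁻¹ = S.dg (hz D (D.simple q) (-1 : Fˣ)) * N := by
    rw [← S.nU_neg, show (-(1 : F)) = ((-1 : Fˣ) : F) by simp, S.nU_simple hq]
  refine ⟨N * n * N⁻¹, mul_mem (mul_mem hN hnm) (inv_mem hN), ⟨N, S.mono_le_group hN, rfl⟩, ?_⟩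
  have hA := gacts_mul S (gacts_mul S (gacts_nU S hq) h)
    (gacts_mul S (gacts_dg S (hz D (D.simple q) (-1 : Fˣ))) (gacts_nU S hq))
  rw [← hNi] at hA
  refine ⟨_, by simpa only [one_mul] using hA, fun r => ?_⟩
  show etaU S q (w (S.refl q r)) * c (S.refl q r) * (S.chi (hz D (D.simple q) (-1 : Fˣ)) (S.refl q r : Fin D.nroots) * etaU S q r) = c (S.refl q r) ∨
    etaU S q (w (S.refl q r)) * c (S.refl q r) * (S.chi (hz D (D.simple q) (-1 : Fˣ)) (S.refl q r : Fin D.nroots) * etaU S q r) = -c (S.refl q r)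
  have hpm : ∀ (k : ℤ), (-1 : Fˣ) ^ k = 1 ∨ (-1 : Fˣ) ^ k = -1 := fun k => by
    rcases Int.even_or_odd k with e | e
    · exact Or.inl e.neg_one_zpow
    · exact Or.inr e.neg_one_zpow
  rw [S.chi_hz _ _ (Fin.is_lt _)]
  rcases etaU_cases S (F := F) q (w (S.refl q r)) with a | a <;>
    rcases etaU_cases S (F := F) q r with b | b <;>
    rcases hpm (∑ j ∈ Finset.range D.rank, cor D (D.simple q) j * D.cartan j (S.refl q r : Fin D.nroots))
      with e | e <;> simp [a, b, e]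

end CfsgLib.Chev.OddInvol
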