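import Cfsg.Agent.Chev.OddInvol.Monomial
import Cfsg.Agent.Chev.SoundSys
import Cfsg.Agent.Chev.WeylPoincare

/-!
# Reduction of monomial involutions to the torus

For each set `I` of fundamental roots the table gives a word for the longest element of `W_I` and
a reason why a monomial involution acting by it is conjugate to one acting by a shorter element.
-/

set_option autoImplicit false

namespace CfsgLib.Chev.OddInvol

open Cfsg.Lie CfsgLib.Chev CfsgLib.Chev.Sys

universe u

/-- A reason. -/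
inductive Wit where
  | imp (q : ℕ)
  | sq (q g : ℕ)
  | tri (q q' k : ℕ)
deriving DecidableEq

/-- A word applied to a root, on the tables. -/
noncomputable def act (T : Tbl) (L : List ℕ) (r : ℕ) : ℕ := L.foldr (fun q r => T.piAt q r) r

/-- The list is one term of bidegree one with a small non-zero coefficient. -/
def single (L : List (ℕ × ℤ × ℕ × ℕ)) (k : ℕ) (Ms : List ℤ) : Bool :=
  Ms.any fun M => decide (L = [(k, M, 1, 1)])

/-- The check of a reason. -/
noncomputable def witOK (T : Tbl) (m : ℕ) (L : List ℕ) : Wit → Bool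
  | .imp q => Nat.blt q T.l && m.testBit q &&
      !Nat.beq (act T L (T.simpleAt q)) (T.negAt (T.simpleAt q))
  | .sq q g =>
    let a := T.simpleAt q
    let pg := act T L g
    let s := T.negAt pg
    Nat.blt q T.l && m.testBit q && Nat.blt g T.n && !Nat.beq s g && !Nat.beq s (T.negAt g) &&
      [1, -1, 2, -2].any fun M : ℤ =>
        decide (T.terms g s = [(a, M, 1, 1)]) &&
          decide (T.terms pg (T.negAt g) = [(T.negAt a, M, 1, 1)])
  | .tri q q' k =>
    let a := T.simpleAt q
    let b := T.simpleAt q'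
    Nat.blt q T.l && m.testBit q && Nat.blt q' T.l && m.testBit q' && Nat.blt k T.n &&
      !Nat.beq b a && !Nat.beq b (T.negAt a) &&
      ([1, -1, 2, -2].any fun M : ℤ =>
        decide (T.terms a b = [(k, M, 1, 1)]) &&
          decide (T.terms (T.negAt a) (T.negAt b) = [(T.negAt k, -M, 1, 1)])) &&
      Nat.beq (T.piAt q' k) a && Nat.beq (T.piAt q' a) k &&
      Nat.beq (act T L k) (T.negAt k) &&
      decide (((List.range T.l).map fun j => T.corAt b j * T.carAt j a).sum % 2 = 1) &&
      (List.range T.n).all fun r => Nat.beq (act T L (T.piAt q' r)) (T.piAt q' (act T L r))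

/-- The check for one set of fundamental roots. -/
noncomputable def caseOK (T : Tbl) (m : ℕ) (L : List ℕ) (wit : Wit) : Bool :=
  L.all (fun q => Nat.blt q T.l) &&
  ((List.range T.l).all fun q =>
    cond (m.testBit q)
      ((List.range T.l).any fun i => m.testBit i &&
        Nat.beq (act T L (T.simpleAt q)) (T.negAt (T.simpleAt i)))
      ((List.range T.l).all fun j => m.testBit j ||
        decide (T.vecAt (act T L (T.simpleAt q)) j = T.vecAt (T.simpleAt q) j))) &&
  witOK T m L wit

/-- The check of the whole table. -/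
noncomputable def redOK (T : Tbl) (wl : List (List ℕ × Wit)) : Bool :=
  (List.range (2 ^ T.l - 1)).all fun i =>
    caseOK T (i + 1) (wl.getD i ([], .imp 0)).1 (wl.getD i ([], .imp 0)).2

variable {D : ChevalleyDatum} {T : Tbl} (hV : T.Valid D) {F : Type u} [Field F]

local notation "S₀" => (Tbl.Valid.toSys hV : Sys _)

/-- The product of two non-squares is a square. -/
theorem isSquare_mul [Finite F] (h2 : (2 : F) ≠ 0) {a b : Fˣ} (ha : ¬ IsSquare a) (hb : ¬ IsSquare b) :
    IsSquare (a * b) := by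
  haveI : Fintype F := Fintype.ofFinite F
  have hF : ringChar F ≠ 2 := fun h => h2 (by
    haveI : CharP F 2 := h ▸ ringChar.charP F
    exact CharTwo.two_eq_zero)
  have key : ∀ x : Fˣ, ¬ IsSquare x → x ^ (Fintype.card F / 2) = -1 := fun x hx => by
    rcases FiniteField.pow_dichotomy hF (Units.ne_zero x) with e | e
    · exact absurd ((FiniteField.unit_isSquare_iff hF x).2 (Units.ext (by simpa using e))) hx
    · exact Units.ext (by simpa using e)
  rw [FiniteField.unit_isSquare_iff hF, mul_pow, key a ha, key b hb]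
  simp

include hV

theorem act_eq (hl : D.rank = T.l) {L : List ℕ} (hL : ∀ q ∈ L, q < T.l) (r : Fin D.nroots) :
    ((Sys.wprod (Tbl.Valid.toSys.{u} hV) L r : Fin D.nroots) : ℕ) = act T L r := by
  induction L with
  | nil => simp [act]
  | cons q L ih =>
    rw [Sys.wprod_cons, Equiv.Perm.mul_apply, Sys.refl_apply _ (hl ▸ hL q (List.mem_cons_self ..))]
    show T.piAt q _ = _
    rw [ih fun x hx => hL x (List.mem_cons_of_mem _ hx)]
    rfl

omit hV in
theorem two_cases {M : ℤ} (h2 : (2 : F) ≠ 0) (hM : M ∈ ([1, -1, 2, -2] : List ℤ)) : (M : F) ≠ 0 := by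
  fin_cases hM <;> simp [h2]

theorem exists_gc_shorter [Finite F] (h2 : (2 : F) ≠ 0) {wl : List (List ℕ × Wit)}
    (hOK : redOK T wl = true) {n : GL D.Idx F} (hnm : n ∈ D.monomialSubgroup F) (hn : n * n = 1)
    {w : Equiv.Perm (Fin D.nroots)} (hwW : w ∈ (Tbl.Valid.toSys.{u} hV).weyl)
    {c : Fin D.nroots → Fˣ} (hA : GActs (Tbl.Valid.toSys.{u} hV) n w c) (hw1 : w ≠ 1) :
    ∃ n₁ ∈ D.monomialSubgroup F, GC D n n₁ ∧ ∃ w₁ ∈ (Tbl.Valid.toSys.{u} hV).weyl,
      (Tbl.Valid.toSys.{u} hV).Acts n₁ w₁ ∧ wlen w₁ < wlen w := by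
  classical
  set S := Tbl.Valid.toSys.{u} hV with hS
  have hl : D.rank = T.l := hV.hL.rank
  have hnr : D.nroots = T.n := hV.hL.nroots
  obtain ⟨hww, hcw⟩ := gacts_involution S hA hn
  have hwi : w⁻¹ = w := inv_eq_of_mul_eq_one_right hww
  have hwa : ∀ r, w (w r) = r := fun r => by
    rw [← Equiv.Perm.mul_apply, hww, Equiv.Perm.one_apply]
  by_cases hdesc : ∃ q : Fin D.rank, ¬ S.Pos (w (S.sr q)) ∧ w (S.sr q) ≠ negR S (S.sr q)
  · obtain ⟨q, hq1, hq2⟩ := hdesc
    obtain ⟨n₁, h1, h2', c₁, h3, -⟩ := move_conj S q.2 hnm hA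
    refine ⟨n₁, h1, h2', _, mul_mem (mul_mem (S.refl_mem_weyl q) hwW) (S.refl_mem_weyl q),
      gacts_acts S h3, ?_⟩
    have hlt := S.wlen_mul_refl_of_neg hwW (i := q) hq1
    have hsw : S.refl q * w ∈ S.weyl := mul_mem (S.refl_mem_weyl q) hwW
    have hinv : (w * S.refl q)⁻¹ = S.refl q * w := by rw [_root_.mul_inv_rev, Sys.refl_inv, hwi]
    have hlen : wlen (S.refl q * w) = wlen (w * S.refl q) := by
      rw [← hinv, S.wlen_inv (mul_mem hwW (S.refl_mem_weyl q))]
    have hneg : ¬ S.Pos ((S.refl q * w) (S.sr q)) := by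
      rw [Equiv.Perm.mul_apply]
      intro hp
      have h4 : ¬ S.Pos (w (S.sr q)) := hq1
      by_cases e : S.refl q (w (S.sr q)) = S.sr q
      · apply hq2
        have e' : w (S.sr q) = S.refl q (S.sr q) := by rw [← S.refl_refl q (w (S.sr q)), e]
        rw [e']
        exact Fin.ext ((S.refl_apply q.2 _).trans (S.pi_simple q q.2))
      · have := S.refl_pos q hp e
        rw [S.refl_refl] at this
        exact h4 this
    have := S.wlen_mul_refl_of_neg hsw (i := q) hneg
    omega
  simp only [not_exists, not_and, not_ne_iff] at hdesc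
  -- the set of negated fundamental roots
  let P : Fin T.l → Bool := fun q =>
    decide (w (S.sr (Fin.cast hl.symm q)) = negR S (S.sr (Fin.cast hl.symm q)))
  set m := Nat.ofBits P with hm
  have hbit : ∀ i : Fin D.rank, m.testBit i = true ↔ w (S.sr i) = negR S (S.sr i) := fun i => by
    rw [hm, Nat.testBit_ofBits_lt P i (hl ▸ i.2), decide_eq_true_iff]
    rfl
  obtain ⟨i₀, hi₀⟩ := S.exists_descent hwW hw1
  have hm0 : m ≠ 0 := fun e => by
    have := (hbit i₀).2 (hdesc i₀ hi₀)
    rw [e] at this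
    simp at this
  have hmlt : m < 2 ^ T.l := Nat.ofBits_lt_two_pow P
  have hcase := List.all_eq_true.1 hOK (m - 1) (List.mem_range.2 (by omega))
  rw [show m - 1 + 1 = m by omega] at hcase
  generalize (wl.getD (m - 1) ([], Wit.imp 0)).1 = L at hcase
  generalize (wl.getD (m - 1) ([], Wit.imp 0)).2 = wit at hcase
  rw [caseOK, Bool.and_eq_true, Bool.and_eq_true] at hcase
  obtain ⟨⟨hL, hsimp⟩, hwit⟩ := hcase
  have hL' : ∀ q ∈ L, q < T.l := fun q hq => Nat.le_of_ble_eq_true (List.all_eq_true.1 hL q hq)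
  set p := S.wprod L with hp
  have hact : ∀ r : Fin D.nroots, (p r : ℕ) = act T L r := fun r => act_eq hV hl hL' r
  have hsr : ∀ i : Fin D.rank, ((S.sr i : Fin D.nroots) : ℕ) = T.simpleAt i := fun i =>
    Tbl.simpled hV.hL i
  have hnegT : ∀ r : Fin D.nroots, (negR S r : ℕ) = T.negAt r := fun r => hV.negd' (hnr ▸ r.2)
  -- linearity
  have hlin : ∀ (x : Fin D.nroots) (j : Fin D.rank),
      S.rv (w x) j = ∑ i, S.rv x i * S.rv (w (S.sr i)) j := fun x j => by
    have := S.key_linear hwW j x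
    simpa only [Sys.key, hwi] using this
  have hrvneg : ∀ (x : Fin D.nroots) (j : Fin D.rank), S.rv (negR S x) j = - S.rv x j :=
    fun x j => S.vec_neg x x.2 j j.2
  have hwp : w * p = 1 := by
    by_contra hne
    obtain ⟨i, hi⟩ := S.exists_descent (mul_mem hwW (S.wprod_mem_weyl L)) hne
    apply hi
    rw [Equiv.Perm.mul_apply]
    have hrow := List.all_eq_true.1 hsimp i (List.mem_range.2 (hl ▸ i.2))
    by_cases hb : m.testBit i = true
    · rw [hb, cond_true, List.any_eq_true] at hrow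
      obtain ⟨t, ht, h'⟩ := hrow
      rw [Bool.and_eq_true] at h'
      have e : p (S.sr i) = negR S (S.sr ⟨t, hl ▸ List.mem_range.1 ht⟩) := Fin.ext (by
        rw [hact, hnegT, hsr, hsr]
        exact Nat.eq_of_beq_eq_true h'.2)
      rw [e, hA.comm_neg, (hbit ⟨t, _⟩).1 h'.1, negR_negR]
      exact S.sr_pos _
    · rw [Bool.not_eq_true] at hb
      rw [hb, cond_false, List.all_eq_true] at hrow
      have hout : ∀ j : Fin D.rank, m.testBit j = false → S.rv (p (S.sr i)) j = S.rv (S.sr i) j :=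
        fun j hj => by
          have := hrow j (List.mem_range.2 (hl ▸ j.2))
          rw [hj, Bool.false_or, decide_eq_true_iff] at this
          show T.vecAt (p (S.sr i) : Fin D.nroots) j = T.vecAt (S.sr i : Fin D.nroots) j
          rw [hact, hsr]
          exact this
      have hpos : S.Pos (w (S.sr i)) := by
        by_contra hn'
        have := (hbit i).2 (hdesc i hn')
        rw [hb] at this
        exact absurd this (by simp)
      obtain ⟨j, hj, hjp⟩ : ∃ j : Fin D.rank, m.testBit j = false ∧ 0 < S.rv (w (S.sr i)) j := by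
        by_contra hc
        simp only [not_exists, not_and, not_lt] at hc
        have h0 : S.rv (w (w (S.sr i))) i = 0 := by
          rw [hlin]
          refine Finset.sum_eq_zero fun k _ => ?_
          by_cases hk : m.testBit k = true
          · rw [(hbit k).1 hk, hrvneg, Sys.rv_sr, Pi.single_eq_of_ne, neg_zero, mul_zero]
            intro e
            rw [e] at hb
            rw [hb] at hk
            exact absurd hk (by simp)
          · rw [le_antisymm (hc k (by simpa using hk)) (S.rv_nonneg hpos k), zero_mul]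
        rw [hwa, Sys.rv_sr, Pi.single_eq_same] at h0
        exact one_ne_zero h0
      by_contra hn'
      have hle := S.rv_nonpos hn' j
      rw [hlin, Finset.sum_eq_single i] at hle
      · rw [hout i hb, Sys.rv_sr, Pi.single_eq_same, one_mul] at hle
        omega
      · intro k _ hk
        by_cases hkb : m.testBit k = true
        · rw [(hbit k).1 hkb, hrvneg, Sys.rv_sr, Pi.single_eq_of_ne, neg_zero, mul_zero]
          intro e
          rw [e] at hj
          rw [hj] at hkb
          exact absurd hkb (by simp)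
        · rw [hout k (by simpa using hkb), Sys.rv_sr, Pi.single_eq_of_ne hk, zero_mul]
      · simp
  have hwpe : w = p := by rw [← mul_right_inj w, hww, hwp]
  subst hwpe
  -- the square move
  have finish : ∀ (n' : GL D.Idx F) (c' : Fin D.nroots → Fˣ), n' ∈ D.monomialSubgroup F →
      GC D n n' → GActs S n' (S.wprod L) c' → ∀ q : Fin D.rank, m.testBit q = true →
      IsSquare (c' (S.sr q)) → ∃ n₁ ∈ D.monomialSubgroup F, GC D n n₁ ∧ ∃ w₁ ∈ S.weyl,
        S.Acts n₁ w₁ ∧ wlen w₁ < wlen (S.wprod L) := by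
    intro n' c' hn'm hgc hA' q hq hsq
    obtain ⟨n₁, h1, h2', h3⟩ := move_reflect S h2 (gc_sq hgc hn) hn'm hA' ((hbit q).1 hq) hsq
    refine ⟨n₁, h1, gc_trans hgc h2', _, mul_mem hwW (S.refl_mem_weyl q), h3, ?_⟩
    have hneg : ¬ S.Pos (S.wprod L (S.sr q)) := by
      rw [(hbit q).1 hq]
      intro hpp
      have := S.rv_nonneg hpp q
      rw [hrvneg, Sys.rv_sr, Pi.single_eq_same] at this
      omega
    have := S.wlen_mul_refl_of_neg hwW (i := q) hneg
    show wlen (S.wprod L * S.refl q) < wlen (S.wprod L)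
    change wlen (S.wprod L * S.refl q) + 1 = wlen (S.wprod L) at this
    omega
  cases wit with
  | imp q =>
    simp only [witOK, Bool.and_eq_true, Bool.not_eq_true'] at hwit
    obtain ⟨⟨hq, hqb⟩, hne⟩ := hwit
    have hq' : q < D.rank := hl ▸ Nat.le_of_ble_eq_true hq
    have e := congrArg Fin.val ((hbit ⟨q, hq'⟩).1 hqb)
    rw [hact, hnegT, hsr] at e
    exact absurd e (Nat.ne_of_beq_eq_false hne)
  | sq q g =>
    simp only [witOK, Bool.and_eq_true, Bool.not_eq_true', List.any_eq_true, decide_eq_true_iff]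
      at hwit
    obtain ⟨⟨⟨⟨⟨hq, hqb⟩, hg⟩, hs1⟩, hs2⟩, M, hM, hT1, hT2⟩ := hwit
    have hq' : q < D.rank := hl ▸ Nat.le_of_ble_eq_true hq
    have hg' : g < D.nroots := hnr ▸ Nat.le_of_ble_eq_true hg
    set γ : Fin D.nroots := ⟨g, hg'⟩
    set s := negR S (p γ)
    have hsT : (s : ℕ) = T.negAt (act T L g) := by rw [hnegT, hact]
    have hne1 : s ≠ γ := fun e => Nat.ne_of_beq_eq_false hs1 (hsT ▸ congrArg Fin.val e)
    have hne2 : s ≠ negR S γ := fun e => Nat.ne_of_beq_eq_false hs2
      (hsT ▸ (congrArg Fin.val e).trans (hnegT γ))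
    have hps : p s = negR S γ := by rw [hA.comm_neg, hwa]
    have e1 : D.commTerms γ s = [((S.sr ⟨q, hq'⟩ : Fin D.nroots) , M, 1, 1)].map (fun x => ((x.1 : ℕ), x.2)) := by
      rw [Tbl.Valid.commTermsd hV (hnr ▸ γ.2) (hnr ▸ s.2), hsT]
      simpa [hsr] using hT1
    have e2 : D.commTerms (p γ : Fin D.nroots) (p s : Fin D.nroots) =
        [(((p (S.sr ⟨q, hq'⟩) : Fin D.nroots) : ℕ), M, 1, 1)] := by
      rw [Tbl.Valid.commTermsd hV (hnr ▸ (p γ).2) (hnr ▸ (p s).2), (hbit ⟨q, hq'⟩).1 hqb, hnegT, hsr,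
        hps, hnegT, hact]
      exact hT2
    have hc := coef_sum S hA hne1 hne2 (by simpa using e1) e2
    have hcs : c s = c γ := by
      have a1 := hcw γ
      have a2 := hA.opp (p γ)
      exact mul_left_cancel (a2.trans a1.symm)
    rw [hcs] at hc
    refine finish n c hnm (gc_refl n) hA ⟨q, hq'⟩ hqb ⟨c γ, Units.ext ?_⟩
    rw [Units.val_mul]
    exact mul_right_cancel₀ (two_cases h2 hM) (by linear_combination hc)
  | tri q q' k =>
    simp only [witOK, Bool.and_eq_true, Bool.not_eq_true', List.any_eq_true, decide_eq_true_iff]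
      at hwit
    obtain ⟨⟨⟨⟨⟨⟨⟨⟨⟨⟨⟨⟨hq, hqb⟩, hq2⟩, hqb2⟩, hk⟩, hs1⟩, hs2⟩, M, hM, hT1, hT2⟩, hpi⟩, hpi'⟩, hak⟩, hodd⟩, hcomm⟩ := hwit
    have hq' : q < D.rank := hl ▸ Nat.le_of_ble_eq_true hq
    have hq2' : q' < D.rank := hl ▸ Nat.le_of_ble_eq_true hq2
    have hk' : k < D.nroots := hnr ▸ Nat.le_of_ble_eq_true hk
    set a := S.sr ⟨q, hq'⟩
    set b := S.sr ⟨q', hq2'⟩
    set κ : Fin D.nroots := ⟨k, hk'⟩
    have haT : (a : ℕ) = T.simpleAt q := hsr _
    have hbT : (b : ℕ) = T.simpleAt q' := hsr _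
    have hpa : p a = negR S a := (hbit ⟨q, hq'⟩).1 hqb
    have hpb : p b = negR S b := (hbit ⟨q', hq2'⟩).1 hqb2
    have hpk : p κ = negR S κ := Fin.ext (by rw [hact, hnegT]; exact Nat.eq_of_beq_eq_true hak)
    have hne1 : b ≠ a := fun e => Nat.ne_of_beq_eq_false hs1 (by rw [← haT, ← hbT, e])
    have hne2 : b ≠ negR S a := fun e => Nat.ne_of_beq_eq_false hs2 (by rw [← haT, ← hbT, e, hnegT])
    have e1 : D.commTerms a b = [((κ : ℕ), M, 1, 1)] := by
      rw [Tbl.Valid.commTermsd hV (hnr ▸ a.2) (hnr ▸ b.2), haT, hbT]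
      exact hT1
    have e2 : D.commTerms (p a : Fin D.nroots) (p b : Fin D.nroots) =
        [(((p κ : Fin D.nroots) : ℕ), -M, 1, 1)] := by
      rw [hpa, hpb, hpk, Tbl.Valid.commTermsd hV (hnr ▸ (negR S a).2) (hnr ▸ (negR S b).2), hnegT,
        hnegT, hnegT, haT, hbT]
      exact hT2
    have hc := coef_sum S hA hne1 hne2 e1 e2
    have hck : c κ = -(c a * c b) := Units.ext (by
      rw [Units.val_neg, Units.val_mul]
      refine mul_right_cancel₀ (two_cases h2 hM) ?_
      push_cast at hc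
      linear_combination hc)
    by_cases ha : IsSquare (c a)
    · exact finish n c hnm (gc_refl n) hA ⟨q, hq'⟩ hqb ha
    by_cases hb : IsSquare (c b)
    · exact finish n c hnm (gc_refl n) hA ⟨q', hq2'⟩ hqb2 hb
    by_cases hm1 : IsSquare (-1 : Fˣ)
    · obtain ⟨n', h1, h2', c', h3, h4⟩ := move_conj S hq2' hnm hA
      have hfix : S.refl q' * S.wprod L * S.refl q' = S.wprod L := by
        have hcm : S.refl q' * S.wprod L = S.wprod L * S.refl q' := Equiv.ext fun r => Fin.ext (by
          rw [Equiv.Perm.mul_apply, Equiv.Perm.mul_apply, S.refl_apply hq2']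
          show T.piAt q' (p r : Fin D.nroots) = _
          rw [hact, hact, S.refl_apply hq2']
          exact (Nat.eq_of_beq_eq_true
            (List.all_eq_true.1 hcomm r (List.mem_range.2 (hnr ▸ r.2)))).symm)
        rw [hcm, mul_assoc, S.refl_mul_self, mul_one]
      rw [hfix] at h3
      have hka : S.refl q' a = κ := Fin.ext (by
        rw [S.refl_apply hq2', haT]; exact Nat.eq_of_beq_eq_true hpi')
      have hs : IsSquare (c κ) := by
        rw [hck, show -(c a * c b) = (-1) * (c a * c b) by simp]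
        exact hm1.mul (isSquare_mul h2 ha hb)
      refine finish n' c' h1 h2' h3 ⟨q, hq'⟩ hqb ?_
      rcases h4 a with e | e <;> rw [e, hka]
      · exact hs
      · rw [show -(c κ) = (-1) * c κ by simp]; exact hm1.mul hs
    · obtain ⟨n', h1, h2', h3⟩ := move_flip S h2 hn hnm hA hpb
      refine finish n' _ h1 h2' h3 ⟨q, hq'⟩ hqb ?_
      show IsSquare (c a * S.chi (hz D (b : ℕ) (-1 : Fˣ)) (a : Fin D.nroots))
      have hval : S.chi (hz D (b : ℕ) (-1 : Fˣ)) (a : Fin D.nroots) = -1 := by
        rw [S.chi_hz _ _ a.2]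
        refine Odd.neg_one_zpow (Int.odd_iff.2 ?_)
        rw [sum_range_list] at hodd
        rw [hl]
        refine Eq.trans ?_ hodd
        congr 1
        refine Finset.sum_congr rfl fun j hj => ?_
        rw [Tbl.cord hV.hL (hnr ▸ b.2), hV.cart (Finset.mem_range.1 hj) (hnr ▸ a.2), haT, hbT]
      rw [hval]
      exact isSquare_mul h2 ha hm1

/-- Every involution is conjugate into the diagonal subgroup. -/
theorem exists_gc_diag [Finite F] (hodd : Odd (Nat.card F)) (h2 : (2 : F) ≠ 0)
    {wl : List (List ℕ × Wit)} (hOK : redOK T wl = true) (hN : 0 < D.nroots / 2)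
    {g : GL D.Idx F} (hg : g ∈ D.group F) (hg2 : g * g = 1) :
    ∃ t ∈ D.diagonalSubgroup F, GC D g t := by
  set S := Tbl.Valid.toSys.{u} hV
  obtain ⟨n, hnm, hn, hgc⟩ := exists_gc_monomial S hodd hN hg hg2
  obtain ⟨w, hwW, c, hA⟩ := exists_gacts S hnm
  induction hlen : wlen w using Nat.strong_induction_on generalizing n w c with
  | _ k ih =>
    by_cases hw1 : w = 1
    · refine ⟨n, S.mem_diag_of_pos hnm (gacts_acts S hA) (fun r hr => ?_), hgc⟩
      rw [hw1]
      exact hr
    · obtain ⟨n₁, h1, h2', w₁, h3, h4, h5⟩ := exists_gc_shorter hV h2 hOK hnm hn hwW hA hw1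
      obtain ⟨w₂, h6, c₂, h7⟩ := exists_gacts S h1
      obtain rfl := S.acts_unique (gacts_acts S h7) h4
      exact ih _ (hlen ▸ h5) n₁ h1 (gc_sq h2' hn) (gc_trans hgc h2') w₂ h6 c₂ h7 rfl

end CfsgLib.Chev.OddInvol
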